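import Mathlib
import Cfsg.Agent.Helper77.D1Defs2
import Cfsg.Agent.Helper80.DefectZero
import Cfsg.Agent.Helper55.D1IC

/-! PIECE IH of CALL S4442B (helper77): the characters of `blkTheta K x θ` have degree prime
to `p`. -/

universe u

set_option autoImplicit false

open Cfsg Cfsg.Agent.Helper77
open scoped ComplexConjugate

namespace Cfsg.Agent.Helper55

variable {G : Type u} [Group G] [Finite G]

theorem d1_blk_notdvd (p : ℕ) [Fact p.Prime] (x : G) (K : Subgroup G) (h : D1Hyp p x K)
    (θ : Cfsg.IrrCharacter K) (χ : Cfsg.IrrCharacter G) (hχ : χ ∈ blkTheta K x (θ : K → ℂ)) :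
    ¬ p ∣ Cfsg.charDegree (χ : G → ℂ) := by
  intro hdvd
  apply hχ
  have hp : p.Prime := Fact.out
  have hfac : (Nat.card G).factorization p = 1 := by
    have h1 : p ∣ Nat.card G := by rw [← h.hx]; exact orderOf_dvd_natCard x
    have h2 : ¬ p ^ 2 ∣ Nat.card G := h.hsq
    have hpos : Nat.card G ≠ 0 := Nat.card_pos.ne'
    have h3 : 1 ≤ (Nat.card G).factorization p :=
      (hp.dvd_iff_one_le_factorization hpos).mp h1
    have h4 : ¬ 2 ≤ (Nat.card G).factorization p :=
      fun h5 => h2 ((hp.pow_dvd_iff_le_factorization hpos).mpr h5)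
    omega
  have hvan : ∀ k : K, (χ : G → ℂ) (x * (k : G)) = 0 := by
    intro k
    apply Helper80.irr_eq_zero_of_defect_zero χ p hp (by rw [hfac, pow_one]; exact hdvd)
    have h6 := d1_dvd_orderOf p x K h 1
      (by intro h1; exact hp.one_lt.ne' (Nat.dvd_one.mp h1)) k
    rwa [pow_one] at h6
  show dco K (θ : K → ℂ) (χ : G → ℂ) x = 0
  unfold dco
  rw [finsum_eq_zero_of_forall_eq_zero (fun k => by rw [hvan k, zero_mul]), mul_zero]

end Cfsg.Agent.Helper55
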