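import Mathlib
import Cfsg.Agent.Helper77.D1Defs2
import Cfsg.Agent.Helper29.D1ID
import Cfsg.Agent.Helper55.D1IK

/-! PIECE IJ of CALL S4442B (helper77): `blkTheta` only depends on the `N_G(⟨x⟩)`-orbit of `θ`. -/

universe u

set_option autoImplicit false

open Cfsg Cfsg.Agent.Helper77
open scoped ComplexConjugate

namespace Cfsg.Agent.Helper55

variable {G : Type u} [Group G] [Finite G]

theorem d1_blk_conj (p : ℕ) [Fact p.Prime] (x : G) (K : Subgroup G) (h : D1Hyp p x K)
    (θ θ' : Cfsg.IrrCharacter K) (n : G) (hn : n * x * n⁻¹ ∈ Subgroup.zpowers x)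
    (hθ : thetaConj K n (θ : K → ℂ) (θ' : K → ℂ)) :
    blkTheta K x (θ' : K → ℂ) = blkTheta K x (θ : K → ℂ) := by
  classical
  have hp : p.Prime := Fact.out
  have hn' : n ∈ Subgroup.normalizer ((Subgroup.zpowers x : Subgroup G) : Set G) := by
    apply Subgroup.mem_normalizer_fintype
    intro g hg
    obtain ⟨z, rfl⟩ := Subgroup.mem_zpowers_iff.mp hg
    have h1 : n * x ^ z * n⁻¹ = (n * x * n⁻¹) ^ z := (conj_zpow).symm
    rw [h1]
    exact Subgroup.zpow_mem _ hn z
  obtain ⟨j, hj⟩ := (Submonoid.mem_powers_iff _ _).mp ((mem_powers_iff_mem_zpowers).mpr hn)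
  have hjp : ¬ p ∣ j := by
    intro hd
    have h1 : x ^ j = 1 := by
      rw [← h.hx] at hd
      exact orderOf_dvd_iff_pow_eq_one.mp hd
    rw [h1] at hj
    have h2 : x = 1 := by
      have h3 : n⁻¹ * (n * x * n⁻¹) * n = x := by group
      rw [← h3, ← hj]; group
    have h4 : orderOf x = 1 := by rw [h2, orderOf_one]
    rw [h.hx] at h4
    exact hp.one_lt.ne' h4
  ext χ
  have hID := Helper29.d1_dco_conj p x K h (θ : K → ℂ) (θ' : K → ℂ) n hn' hθ χ x
  rw [← hj] at hID
  rw [← d1_dco_ne_zero_iff p x K h θ' χ j hjp, hID]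
  unfold blkTheta
  rw [Set.mem_setOf_eq]

end Cfsg.Agent.Helper55
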