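import Mathlib

set_option autoImplicit false

/-! PIECE ChainSum of CALL S5994 (helper43): a dimension count along a chain of subspaces. -/

namespace Cfsg.Agent.Helper55

open Module

theorem finrank_chain_sum {K V : Type*} [Field K] [AddCommGroup V] [Module K V]
    [FiniteDimensional K V] (U : Submodule K V) (C X : ℕ → Submodule K V) (hC0 : C 0 = ⊥)
    (hCmono : ∀ i, C i ≤ C (i + 1)) (hX : ∀ i, X i ≤ U ⊓ C (i + 1)) (L : ℕ) :
    ∑ i ∈ Finset.range L, finrank K ↥(X i) ≤
      finrank K ↥U + ∑ i ∈ Finset.range L, finrank K ↥(X i ⊓ C i) := by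
  have key : ∀ L : ℕ, ∑ i ∈ Finset.range L, finrank K ↥(X i) ≤
      finrank K ↥(U ⊓ C L) + ∑ i ∈ Finset.range L, finrank K ↥(X i ⊓ C i) := by
    intro L
    induction L with
    | zero => simp
    | succ L ih =>
      rw [Finset.sum_range_succ, Finset.sum_range_succ]
      have h1 := Submodule.finrank_sup_add_finrank_inf_eq (X L) (U ⊓ C L)
      have h2 : finrank K ↥(X L ⊔ U ⊓ C L) ≤ finrank K ↥(U ⊓ C (L + 1)) :=
        Submodule.finrank_mono (sup_le (hX L) (inf_le_inf_left U (hCmono L)))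
      have h3 : finrank K ↥(X L ⊓ (U ⊓ C L)) ≤ finrank K ↥(X L ⊓ C L) :=
        Submodule.finrank_mono (inf_le_inf_left (X L) inf_le_right)
      omega
  have h4 : finrank K ↥(U ⊓ C L) ≤ finrank K ↥U := Submodule.finrank_mono inf_le_left
  have := key L
  omega

end Cfsg.Agent.Helper55
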