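import Mathlib

set_option autoImplicit false

/-! PIECE KerRange of CALL S5994 (helper43): rank-nullity for `N ^ b` on `ker N ^ (a + b)`. -/

namespace Cfsg.Agent.Helper55

open Module

theorem finrank_ker_inf_range {K V : Type*} [Field K] [AddCommGroup V] [Module K V]
    [FiniteDimensional K V] (N : Module.End K V) (a b : ℕ) :
    finrank K ↥(LinearMap.ker (N ^ a) ⊓ LinearMap.range (N ^ b)) + finrank K ↥(LinearMap.ker (N ^ b)) =
      finrank K ↥(LinearMap.ker (N ^ (a + b))) := by
  have hle : LinearMap.ker (N ^ b) ≤ LinearMap.ker (N ^ (a + b)) := by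
    intro v hv
    rw [LinearMap.mem_ker] at hv ⊢
    rw [pow_add, Module.End.mul_apply, hv, map_zero]
  have h := LinearMap.finrank_range_add_finrank_ker
    ((N ^ b).comp (LinearMap.ker (N ^ (a + b))).subtype)
  rw [LinearMap.range_comp, LinearMap.ker_comp, Submodule.range_subtype] at h
  have h1 : Submodule.map (N ^ b) (LinearMap.ker (N ^ (a + b)))
      = LinearMap.ker (N ^ a) ⊓ LinearMap.range (N ^ b) := by
    ext y
    constructor
    · rintro ⟨w, hw, rfl⟩
      refine ⟨?_, w, rfl⟩
      rw [SetLike.mem_coe, LinearMap.mem_ker] at hw ⊢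
      rw [← Module.End.mul_apply, ← pow_add]
      exact hw
    · rintro ⟨hy, v, rfl⟩
      refine ⟨v, ?_, rfl⟩
      rw [SetLike.mem_coe, LinearMap.mem_ker] at hy ⊢
      rw [pow_add, Module.End.mul_apply]
      exact hy
  rw [h1, LinearEquiv.finrank_eq (Submodule.comapSubtypeEquivOfLe hle)] at h
  exact h

end Cfsg.Agent.Helper55
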