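import Mathlib

set_option autoImplicit false

/-! PIECE PolarKer of CALL S5994 (helper43): for an isometry `T` with `N = T - 1`,
`ker N ^ b` is polar-orthogonal to `range N ^ b`. -/

namespace Cfsg.Agent.Helper55

open Module

theorem polar_ker_pow_range {F V : Type*} [Field F] [AddCommGroup V] [Module F V]
    (Q : QuadraticForm F V) (T : Module.End F V) (hT : ∀ v, Q (T v) = Q v) (b : ℕ) (x y : V)
    (hx : ((T - 1) ^ b) x = 0) : QuadraticMap.polar Q x (((T - 1) ^ b) y) = 0 := by
  have hpol : ∀ u v, QuadraticMap.polar Q (T u) (T v) = QuadraticMap.polar Q u v := by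
    intro u v
    unfold QuadraticMap.polar
    rw [← map_add, hT, hT, hT]
  have hN : ∀ u v, QuadraticMap.polar Q u ((T - 1) v)
      = - QuadraticMap.polar Q ((T - 1) u) (T v) := by
    intro u v
    have e1 : (T - 1) v = T v - v := rfl
    have e2 : (T - 1) u = T u - u := rfl
    rw [e1, e2, QuadraticMap.polar_sub_right, QuadraticMap.polar_sub_left, hpol]
    ring
  have hcomm : ∀ (b : ℕ) (v : V), T (((T - 1) ^ b) v) = ((T - 1) ^ b) (T v) := by
    intro b v
    have h1 : Commute T ((T - 1) ^ b) :=
      ((Commute.refl T).sub_right (Commute.one_right T)).pow_right b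
    rw [← Module.End.mul_apply, h1.eq, Module.End.mul_apply]
  induction b generalizing x y with
  | zero =>
    rw [pow_zero] at hx
    have hx0 : x = 0 := hx
    rw [hx0, QuadraticMap.polar_zero_left]
  | succ b ih =>
    rw [pow_succ', Module.End.mul_apply, hN, hcomm]
    rw [ih ((T - 1) x) (T y) (by
      rw [← Module.End.mul_apply, ← pow_succ]; exact hx), neg_zero]

end Cfsg.Agent.Helper55
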