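import Mathlib
import Cfsg.Agent.Helper55.U5994KerRange
import Cfsg.Agent.Helper55.U5994ChainSum
import Cfsg.Agent.Helper55.U5994PolarKer

set_option autoImplicit false

/-! PIECE AllEvenTS of CALL S5994 (helper43): a unipotent isometry all of whose Jordan blocks are
even has a totally singular subspace of half the dimension. -/

namespace Cfsg.Agent.Helper55

open Module

theorem hasTS_of_all_even {F V : Type*} [Field F] [AddCommGroup V] [Module F V]
    [FiniteDimensional F V] (h2 : (2 : F) ≠ 0) (Q : QuadraticForm F V) (T : Module.End F V)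
    (hT : ∀ v, Q (T v) = Q v) (hnil : IsNilpotent (T - 1))
    (hev : ∀ e, Odd e → finrank F ↥(LinearMap.ker ((T - 1) ^ (e - 1))) +
      finrank F ↥(LinearMap.ker ((T - 1) ^ (e + 1))) = 2 * finrank F ↥(LinearMap.ker ((T - 1) ^ e))) :
    ∃ U : Submodule F V, (∀ u ∈ U, Q u = 0) ∧ finrank F V ≤ 2 * finrank F ↥U := by
  obtain ⟨N, hNdef⟩ : ∃ N : Module.End F V, N = T - 1 := ⟨_, rfl⟩
  rw [← hNdef] at hnil hev
  obtain ⟨X, hXdef⟩ : ∃ X : ℕ → Submodule F V,
      ∀ i, X i = LinearMap.ker (N ^ (i + 1)) ⊓ LinearMap.range (N ^ (i + 1)) := ⟨_, fun i => rfl⟩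
  have hkermono : ∀ i j, i ≤ j → LinearMap.ker (N ^ i) ≤ LinearMap.ker (N ^ j) := by
    intro i j hij v hv
    rw [LinearMap.mem_ker] at hv ⊢
    obtain ⟨k, rfl⟩ := Nat.exists_eq_add_of_le hij
    rw [add_comm, pow_add, Module.End.mul_apply, hv, map_zero]
  -- polar vanishes between the `X`'s
  have hXX : ∀ a b, ∀ x ∈ X a, ∀ y ∈ X b, QuadraticMap.polar Q x y = 0 := by
    have haux : ∀ a b, a ≤ b → ∀ x ∈ X a, ∀ y ∈ X b, QuadraticMap.polar Q x y = 0 := by
      intro a b hab x hx y hy
      rw [hXdef] at hx hy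
      obtain ⟨y', rfl⟩ := hy.2
      have hx' : (N ^ (b + 1)) x = 0 := hkermono (a + 1) (b + 1) (by omega) hx.1
      rw [hNdef] at hx' ⊢
      exact polar_ker_pow_range Q T hT (b + 1) x y' hx'
    intro a b x hx y hy
    rcases le_total a b with hab | hab
    · exact haux a b hab x hx y hy
    · rw [QuadraticMap.polar_comm]; exact haux b a hab y hy x hx
  refine ⟨⨆ i, X i, ?_, ?_⟩
  · -- totally singular
    have h1 : ∀ a, ∀ x ∈ X a, ∀ v ∈ ⨆ i, X i, QuadraticMap.polar Q x v = 0 := by
      intro a x hx v hv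
      refine Submodule.iSup_induction X (motive := fun v => QuadraticMap.polar Q x v = 0) hv
        (fun b y hy => hXX a b x hx y hy) (QuadraticMap.polar_zero_right Q x) ?_
      intro v w hv hw
      rw [QuadraticMap.polar_add_right, hv, hw, add_zero]
    have h2' : ∀ u ∈ ⨆ i, X i, ∀ v ∈ ⨆ i, X i, QuadraticMap.polar Q u v = 0 := by
      intro u hu v hv
      refine Submodule.iSup_induction X (motive := fun u => QuadraticMap.polar Q u v = 0) hu
        (fun a x hx => h1 a x hx v hv) (QuadraticMap.polar_zero_left Q v) ?_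
      intro u w hu hw
      rw [QuadraticMap.polar_add_left, hu, hw, add_zero]
    intro u hu
    have h3 := h2' u hu u hu
    rw [QuadraticMap.polar_self, two_nsmul, ← two_mul] at h3
    exact (mul_eq_zero.mp h3).resolve_left h2
  · -- dimension count
    obtain ⟨n, hn⟩ := hnil
    have hC0 : LinearMap.ker (N ^ 0) = ⊥ := by
      rw [pow_zero]; exact LinearMap.ker_id
    have hchain := finrank_chain_sum (⨆ i, X i) (fun i => LinearMap.ker (N ^ i)) X hC0
      (fun i => hkermono i (i + 1) (Nat.le_succ i))
      (fun i => le_inf (le_iSup X i) (by rw [hXdef]; exact inf_le_left)) n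
    beta_reduce at hchain
    have hA : ∀ i, finrank F ↥(X i) + finrank F ↥(LinearMap.ker (N ^ (i + 1)))
        = finrank F ↥(LinearMap.ker (N ^ (2 * i + 2))) := by
      intro i
      rw [hXdef]
      have := finrank_ker_inf_range N (i + 1) (i + 1)
      rw [show i + 1 + (i + 1) = 2 * i + 2 by ring] at this
      exact this
    have hB : ∀ i, finrank F ↥(X i ⊓ LinearMap.ker (N ^ i))
        + finrank F ↥(LinearMap.ker (N ^ (i + 1)))
        = finrank F ↥(LinearMap.ker (N ^ (2 * i + 1))) := by
      intro i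
      have e : X i ⊓ LinearMap.ker (N ^ i)
          = LinearMap.ker (N ^ i) ⊓ LinearMap.range (N ^ (i + 1)) := by
        rw [hXdef]
        apply le_antisymm
        · exact le_inf inf_le_right (inf_le_left.trans inf_le_right)
        · exact le_inf (le_inf (inf_le_left.trans (hkermono i (i + 1) (Nat.le_succ i)))
            inf_le_right) inf_le_left
      rw [e]
      have := finrank_ker_inf_range N i (i + 1)
      rw [show i + (i + 1) = 2 * i + 1 by ring] at this
      exact this
    have hE : ∀ i, finrank F ↥(LinearMap.ker (N ^ (2 * i)))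
        + finrank F ↥(LinearMap.ker (N ^ (2 * i + 2)))
        = 2 * finrank F ↥(LinearMap.ker (N ^ (2 * i + 1))) := by
      intro i
      have := hev (2 * i + 1) ⟨i, rfl⟩
      rw [show 2 * i + 1 - 1 = 2 * i by omega, show 2 * i + 1 + 1 = 2 * i + 2 by ring] at this
      exact this
    have hsumA := Finset.sum_congr rfl (fun i (_ : i ∈ Finset.range n) => hA i)
    have hsumB := Finset.sum_congr rfl (fun i (_ : i ∈ Finset.range n) => hB i)
    have hsumE := Finset.sum_congr rfl (fun i (_ : i ∈ Finset.range n) => hE i)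
    rw [Finset.sum_add_distrib] at hsumA hsumB hsumE
    rw [← Finset.mul_sum] at hsumE
    have htel : ∀ L : ℕ, ∑ i ∈ Finset.range L, finrank F ↥(LinearMap.ker (N ^ (2 * i + 2)))
        = ∑ i ∈ Finset.range L, finrank F ↥(LinearMap.ker (N ^ (2 * i)))
          + finrank F ↥(LinearMap.ker (N ^ (2 * L))) := by
      intro L
      induction L with
      | zero =>
        rw [Finset.range_zero, Finset.sum_empty, Finset.sum_empty, Nat.mul_zero, zero_add, hC0,
          finrank_bot]
      | succ L ih =>
        rw [Finset.sum_range_succ, Finset.sum_range_succ, ih]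
        rw [show 2 * (L + 1) = 2 * L + 2 by ring]
    have hfull : finrank F ↥(LinearMap.ker (N ^ (2 * n))) = finrank F V := by
      have : N ^ (2 * n) = 0 := by rw [mul_comm, pow_mul, hn, zero_pow (by norm_num)]
      rw [this, LinearMap.ker_zero, finrank_top]
    have ht := htel n
    rw [hfull] at ht
    omega

end Cfsg.Agent.Helper55
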