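import Cfsg.Agent.Helper62.FitAct

set_option autoImplicit false

/-! The "FPF lemma" of Bender–Glauberman section 11: an element of prime order acting without
fixed points on a nilpotent group `N` centralizes, modulo `C(N)`, every coprime group `Y` it
normalizes: `[Y, x] ≤ C(N)`. No solvability hypothesis (only odd order). -/

namespace Cfsg.Agent.Helper55

open Subgroup

universe u

section BGFpf

variable {G : Type u} [Group G] [Finite G]

/-- Normal `ℓ`-group `P`, `x`-invariant `q`-group `Q`, `x` fixed-point-free on `P`: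
`[x, Q]` centralizes `P`. -/
theorem bgfpf_step_normal (hodd : Odd (Nat.card G)) {ℓ q r : ℕ} (hℓ : ℓ.Prime) (hq : q.Prime)
    (hr : r.Prime) (hℓq : ℓ ≠ q) (hℓr : ℓ ≠ r) (hqr : q ≠ r) (P : Subgroup G) [P.Normal]
    (hP : IsPGroup ℓ P) (Q : Subgroup G) (hQ : IsPGroup q Q) (x : G) (hxr : x ^ r = 1)
    (hxQ : ∀ g ∈ Q, x * g * x⁻¹ ∈ Q) (hfix : ∀ a ∈ P, x * a = a * x → a = 1)
    (g : G) (hg : g ∈ Q) (y : G) (hy : y ∈ P) :
    (x * g * x⁻¹ * g⁻¹) * y = y * (x * g * x⁻¹ * g⁻¹) := by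
  have : Fact ℓ.Prime := ⟨hℓ⟩
  have hc : x * g * x⁻¹ * g⁻¹ ∈ Q := Q.mul_mem (hxQ g hg) (Q.inv_mem hg)
  have hcop : (orderOf (x * g * x⁻¹ * g⁻¹)).Coprime ℓ := by
    obtain ⟨k, hk⟩ := hQ ⟨_, hc⟩
    have hk' : (x * g * x⁻¹ * g⁻¹) ^ q ^ k = 1 := by
      have := congrArg (fun z : Q => (z : G)) hk
      simp only [Subgroup.coe_pow, Subgroup.coe_one] at this
      exact this
    have hdvd : orderOf (x * g * x⁻¹ * g⁻¹) ∣ q ^ k := orderOf_dvd_of_pow_eq_one hk'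
    exact Nat.Coprime.coprime_dvd_left hdvd
      (Nat.Coprime.pow_left k ((Nat.coprime_primes hq hℓ).2 (Ne.symm hℓq)))
  exact Helper35.centralizes_of_coprime_of_frattini hP
    (by rw [normalizer_eq_top_iff.mpr inferInstance]; exact mem_top _) hcop
    (fun y hy => Helper62.FitAct.shult_odd hℓ hq hr hℓq hℓr hqr hodd P hP Q hQ x hxr hxQ hfix
      g hg y hy) y hy

/-- Normal nilpotent `N`, `x`-invariant `q`-group `Q` (`q ∤ |N|`), `x` fixed-point-free on `N`: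
`[x, Q]` centralizes `N`. -/
theorem bgfpf_normal_aux (hodd : Odd (Nat.card G)) {p q : ℕ} (hp : p.Prime) (hq : q.Prime)
    (hqp : q ≠ p) (N : Subgroup G) [N.Normal] (hNnil : Group.IsNilpotent N)
    (hpN : ¬ p ∣ Nat.card N) (hqN : ¬ q ∣ Nat.card N)
    (Q : Subgroup G) (hQ : IsPGroup q Q) (x : G) (hxp : x ^ p = 1)
    (hxQ : ∀ g ∈ Q, x * g * x⁻¹ ∈ Q) (hfix : ∀ a ∈ N, x * a = a * x → a = 1)
    (g : G) (hg : g ∈ Q) : x * g * x⁻¹ * g⁻¹ ∈ centralizer (N : Set G) := by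
  have hN : N = ⨆ ℓ : Nat.Primes, Helper62.FitAct.oq (ℓ : ℕ) N := by
    rw [← Helper62.FitAct.fittingOf_eq_iSup]
    exact le_antisymm (Helper62.FitAct.le_fittingOf le_rfl hNnil) (Helper62.FitAct.fittingOf_le N)
  have key : ∀ ℓ : Nat.Primes, Helper62.FitAct.oq (ℓ : ℕ) N ≤
      centralizer ({x * g * x⁻¹ * g⁻¹} : Set G) := by
    intro ℓ y hy
    rw [mem_centralizer_singleton_iff]
    by_cases hℓN : (ℓ : ℕ) ∣ Nat.card N
    · have hℓq : (ℓ : ℕ) ≠ q := fun e => hqN (e ▸ hℓN)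
      have hℓp : (ℓ : ℕ) ≠ p := fun e => hpN (e ▸ hℓN)
      have hn := Helper62.FitAct.oq_normal (ℓ : ℕ) N
      exact (bgfpf_step_normal hodd ℓ.2 hq hp hℓq hℓp hqp _
        (Helper62.FitAct.oq_isPGroup _ N) Q hQ x hxp hxQ
        (fun a ha => hfix a (Helper62.FitAct.oq_le _ N ha)) g hg y hy).symm
    · have hy1 : y = 1 := by
        by_contra hy1
        obtain ⟨k, hk⟩ := (Helper62.FitAct.oq_isPGroup (ℓ : ℕ) N) ⟨y, hy⟩
        have hk' : y ^ (ℓ : ℕ) ^ k = 1 := by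
          have := congrArg (fun z : Helper62.FitAct.oq (ℓ : ℕ) N => (z : G)) hk
          simp only [Subgroup.coe_pow, Subgroup.coe_one] at this
          exact this
        exact hℓN (Helper62.FitAct.prime_dvd_card_of_mem ℓ.2 (Helper62.FitAct.oq_le _ N hy)
          ⟨k, hk'⟩ hy1)
      rw [hy1]; simp
  rw [mem_centralizer_iff]
  intro a ha
  have ha' : a ∈ ⨆ ℓ : Nat.Primes, Helper62.FitAct.oq (ℓ : ℕ) N := hN ▸ ha
  have hle : (⨆ ℓ : Nat.Primes, Helper62.FitAct.oq (ℓ : ℕ) N) ≤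
      centralizer ({x * g * x⁻¹ * g⁻¹} : Set G) := iSup_le key
  have h2 := hle ha'
  rw [mem_centralizer_singleton_iff] at h2
  exact h2

/-- The subgroup of `Y` of elements `y` with `[x, y] ∈ C(N)`. -/
def bgfpfSub (N Y : Subgroup G) [N.Normal] (x : G) : Subgroup G where
  carrier := {y | y ∈ Y ∧ x * y * x⁻¹ * y⁻¹ ∈ centralizer (N : Set G)}
  one_mem' := ⟨Y.one_mem, by simp⟩
  mul_mem' := by
    rintro a b ⟨ha, ha'⟩ ⟨hb, hb'⟩
    refine ⟨Y.mul_mem ha hb, ?_⟩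
    have e : x * (a * b) * x⁻¹ * (a * b)⁻¹ =
        (x * a * x⁻¹ * a⁻¹) * (a * (x * b * x⁻¹ * b⁻¹) * a⁻¹) := by group
    rw [e]
    exact mul_mem ha' ((inferInstance : (centralizer (N : Set G)).Normal).conj_mem _ hb' a)
  inv_mem' := by
    rintro a ⟨ha, ha'⟩
    refine ⟨Y.inv_mem ha, ?_⟩
    have e : x * a⁻¹ * x⁻¹ * a⁻¹⁻¹ = a⁻¹ * (x * a * x⁻¹ * a⁻¹)⁻¹ * a⁻¹⁻¹ := by group
    rw [e]
    exact (inferInstance : (centralizer (N : Set G)).Normal).conj_mem _ (inv_mem ha') a⁻¹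

omit [Finite G] in
theorem mem_bgfpfSub {N Y : Subgroup G} [N.Normal] {x y : G} :
    y ∈ bgfpfSub N Y x ↔ y ∈ Y ∧ x * y * x⁻¹ * y⁻¹ ∈ centralizer (N : Set G) := Iff.rfl

/-- The FPF lemma, `N` normal in the ambient group. -/
theorem bgfpf_normal (hodd : Odd (Nat.card G)) {p : ℕ} (hp : p.Prime) (N Y : Subgroup G)
    [N.Normal] (x : G) (hNnil : Group.IsNilpotent N) (hxY : x ∈ normalizer (Y : Set G))
    (hxp : x ^ p = 1) (hpN : ¬ p ∣ Nat.card N) (hpY : ¬ p ∣ Nat.card Y)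
    (hcop : (Nat.card N).Coprime (Nat.card Y))
    (hfix : ∀ a ∈ N, x * a = a * x → a = 1) :
    ∀ y ∈ Y, x * y * x⁻¹ * y⁻¹ ∈ centralizer (N : Set G) := by
  have hSY : bgfpfSub N Y x ≤ Y := fun y hy => hy.1
  have hdvd : Nat.card Y ∣ Nat.card (bgfpfSub N Y x) := by
    rw [Nat.dvd_iff_prime_pow_dvd_dvd]
    intro q k hq hqk
    rcases Nat.eq_zero_or_pos k with rfl | hk
    · simp
    have hqY : q ∣ Nat.card Y := (dvd_pow_self q hk.ne').trans hqk
    have hqp : q ≠ p := fun e => hpY (e ▸ hqY)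
    have hqN : ¬ q ∣ Nat.card N := fun h =>
      hq.one_lt.ne' (Nat.eq_one_of_dvd_coprimes hcop h hqY)
    have hqf : Fact q.Prime := ⟨hq⟩
    have hA : zpowers x ≤ normalizer (Y : Set G) := by rw [zpowers_le]; exact hxY
    have hcopA : (Nat.card (zpowers x)).Coprime (Nat.card Y) := by
      rw [Nat.card_zpowers]
      exact Nat.Coprime.coprime_dvd_left (orderOf_dvd_of_pow_eq_one hxp)
        ((Nat.Prime.coprime_iff_not_dvd hp).2 hpY)
    obtain ⟨Q, hQs, hQA⟩ := Helper35.exists_invariant_sylow hA hcopA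
      (Or.inl (Helper62.FitAct.zpowers_isSolvable x)) q
    have hQ := Helper35.isPGroup_of_mem_sylowSet hQs
    have hxQ : ∀ g ∈ Q, x * g * x⁻¹ ∈ Q := by
      intro g hg
      have hxn : x ∈ normalizer (Q : Set G) := hQA (mem_zpowers x)
      exact (mem_normalizer_iff.1 hxn g).1 hg
    have hQS : Q ≤ bgfpfSub N Y x := fun g hg =>
      ⟨hQs.1 hg, bgfpf_normal_aux hodd hp hq hqp N hNnil hpN hqN Q hQ x hxp hxQ hfix g hg⟩
    have h1 : Nat.card Q ∣ Nat.card (bgfpfSub N Y x) := Subgroup.card_dvd_of_le hQS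
    rw [hQs.2] at h1
    have hk2 : k ≤ (Nat.card Y).factorization q :=
      (hq.pow_dvd_iff_le_factorization (Nat.card_pos.ne')).1 hqk
    exact (pow_dvd_pow q hk2).trans h1
  have hEq : bgfpfSub N Y x = Y :=
    Subgroup.eq_of_le_of_card_ge hSY (Nat.le_of_dvd Nat.card_pos hdvd)
  intro y hy
  have hy' : y ∈ bgfpfSub N Y x := by rw [hEq]; exact hy
  exact hy'.2

end BGFpf

/-- **FPF lemma** (Bender–Glauberman, section 11). In a group of odd order let `N` be a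
nilpotent subgroup, `Y` a subgroup normalizing `N`, and `x` an element with `x ^ p = 1`
(`p` prime) normalizing `N` and `Y`, such that `p ∤ |N|`, `p ∤ |Y|`, `(|N|, |Y|) = 1` and `x` has
no non-trivial fixed point on `N`. Then every commutator `[x, y]`, `y ∈ Y`, centralizes `N`. -/
theorem bg_fpf_comm_centralizes {G : Type*} [Group G] [Finite G] (hodd : Odd (Nat.card G))
    {p : ℕ} (hp : p.Prime) (N Y : Subgroup G) (x : G)
    (hNnil : Group.IsNilpotent N) (hYN : Y ≤ normalizer (N : Set G))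
    (hxN : x ∈ normalizer (N : Set G)) (hxY : x ∈ normalizer (Y : Set G))
    (hxp : x ^ p = 1) (hpN : ¬ p ∣ Nat.card N) (hpY : ¬ p ∣ Nat.card Y)
    (hcop : (Nat.card N).Coprime (Nat.card Y))
    (hfix : ∀ a ∈ N, x * a = a * x → a = 1) :
    ∀ y ∈ Y, ∀ a ∈ N, (x * y * x⁻¹ * y⁻¹) * a = a * (x * y * x⁻¹ * y⁻¹) := by
  intro y hy a ha
  have hΓodd : Odd (Nat.card (normalizer (N : Set G))) :=
    Odd.of_dvd_nat hodd (Subgroup.card_subgroup_dvd_card _)
  have hNn : (N.subgroupOf (normalizer (N : Set G))).Normal := Subgroup.normal_in_normalizer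
  have hcN : Nat.card (N.subgroupOf (normalizer (N : Set G))) = Nat.card N :=
    Nat.card_congr (Subgroup.subgroupOfEquivOfLe le_normalizer).toEquiv
  have hcY : Nat.card (Y.subgroupOf (normalizer (N : Set G))) = Nat.card Y :=
    Nat.card_congr (Subgroup.subgroupOfEquivOfLe hYN).toEquiv
  have hnil' : Group.IsNilpotent (N.subgroupOf (normalizer (N : Set G))) :=
    (Group.isNilpotent_congr (Subgroup.subgroupOfEquivOfLe le_normalizer)).mpr hNnil
  have hxY' : (⟨x, hxN⟩ : normalizer (N : Set G)) ∈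
      normalizer ((Y.subgroupOf (normalizer (N : Set G)) : Subgroup (normalizer (N : Set G))) :
        Set (normalizer (N : Set G))) := by
    rw [mem_normalizer_iff]
    intro h
    rw [mem_subgroupOf, mem_subgroupOf]
    exact mem_normalizer_iff.1 hxY (h : G)
  have hxp' : (⟨x, hxN⟩ : normalizer (N : Set G)) ^ p = 1 := by
    apply Subtype.ext
    rw [Subgroup.coe_pow, Subgroup.coe_one]
    exact hxp
  have hfix' : ∀ a' ∈ N.subgroupOf (normalizer (N : Set G)),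
      (⟨x, hxN⟩ : normalizer (N : Set G)) * a' = a' * ⟨x, hxN⟩ → a' = 1 := by
    intro a' ha' h
    have h1 := congrArg Subtype.val h
    simp only [Subgroup.coe_mul] at h1
    have h2 := hfix (a' : G) (mem_subgroupOf.1 ha') h1
    apply Subtype.ext
    rw [Subgroup.coe_one]
    exact h2
  have key := bgfpf_normal hΓodd hp (N.subgroupOf (normalizer (N : Set G)))
    (Y.subgroupOf (normalizer (N : Set G))) ⟨x, hxN⟩ hnil' hxY' hxp'
    (by rw [hcN]; exact hpN) (by rw [hcY]; exact hpY) (by rw [hcN, hcY]; exact hcop) hfix'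
    ⟨y, hYN hy⟩ (mem_subgroupOf.2 hy)
  rw [mem_centralizer_iff] at key
  have h3 := key ⟨a, le_normalizer ha⟩ (mem_subgroupOf.2 ha)
  have h4 := congrArg Subtype.val h3
  simp only [Subgroup.coe_mul, Subgroup.coe_inv] at h4
  exact h4.symm

/-- Conjugation by an element normalizing `N` preserves `C(N)`. -/
theorem bgfpf_conj_mem_centralizer {G : Type*} [Group G] {N : Subgroup G} {g c : G}
    (hg : g ∈ normalizer (N : Set G)) (hc : c ∈ centralizer (N : Set G)) :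
    g * c * g⁻¹ ∈ centralizer (N : Set G) := by
  rw [mem_centralizer_iff] at hc ⊢
  intro a ha
  have ha' : g⁻¹ * a * g⁻¹⁻¹ ∈ N := (mem_normalizer_iff.1 (inv_mem hg) a).1 ha
  have h1 := hc _ ha'
  calc a * (g * c * g⁻¹) = g * (g⁻¹ * a * g⁻¹⁻¹ * c) * g⁻¹ := by group
    _ = g * (c * (g⁻¹ * a * g⁻¹⁻¹)) * g⁻¹ := by rw [h1]
    _ = g * c * g⁻¹ * a := by group

/-- The elements of `N_G(N) ∩ N_G(Y)` acting trivially on `Y / C_Y(N)`. -/
def bgfpfKer {G : Type*} [Group G] (N Y : Subgroup G) : Subgroup G where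
  carrier := {z | z ∈ normalizer (N : Set G) ∧ z ∈ normalizer (Y : Set G) ∧
    ∀ y ∈ Y, z * y * z⁻¹ * y⁻¹ ∈ centralizer (N : Set G)}
  one_mem' := ⟨one_mem _, one_mem _, fun y _ => by simp⟩
  mul_mem' := by
    rintro z₁ z₂ ⟨h1N, h1Y, h1⟩ ⟨h2N, h2Y, h2⟩
    refine ⟨mul_mem h1N h2N, mul_mem h1Y h2Y, ?_⟩
    intro y hy
    have e : z₁ * z₂ * y * (z₁ * z₂)⁻¹ * y⁻¹ =
        (z₁ * (z₂ * y * z₂⁻¹ * y⁻¹) * z₁⁻¹) * (z₁ * y * z₁⁻¹ * y⁻¹) := by group
    rw [e]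
    exact mul_mem (bgfpf_conj_mem_centralizer h1N (h2 y hy)) (h1 y hy)
  inv_mem' := by
    rintro z ⟨hN, hY, h⟩
    refine ⟨inv_mem hN, inv_mem hY, ?_⟩
    intro y hy
    have hy' : z⁻¹ * y * z⁻¹⁻¹ ∈ Y := (mem_normalizer_iff.1 (inv_mem hY) y).1 hy
    have e : z⁻¹ * y * z⁻¹⁻¹ * y⁻¹ =
        (z * (z⁻¹ * y * z⁻¹⁻¹) * z⁻¹ * (z⁻¹ * y * z⁻¹⁻¹)⁻¹)⁻¹ := by group
    rw [e]
    exact inv_mem (h _ hy')

/-- **FPF lemma for two generators**: if `x₁`, `x₂` both satisfy the hypotheses of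
`bg_fpf_comm_centralizes`, then `[z, y]` centralizes `N` for every `z ∈ ⟨x₁, x₂⟩`, `y ∈ Y`. -/
theorem bg_fpf_closure_centralizes {G : Type*} [Group G] [Finite G] (hodd : Odd (Nat.card G))
    {p : ℕ} (hp : p.Prime) (N Y : Subgroup G) (x₁ x₂ : G)
    (hNnil : Group.IsNilpotent N) (hYN : Y ≤ normalizer (N : Set G))
    (hx₁N : x₁ ∈ normalizer (N : Set G)) (hx₁Y : x₁ ∈ normalizer (Y : Set G))
    (hx₂N : x₂ ∈ normalizer (N : Set G)) (hx₂Y : x₂ ∈ normalizer (Y : Set G))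
    (hx₁p : x₁ ^ p = 1) (hx₂p : x₂ ^ p = 1) (hpN : ¬ p ∣ Nat.card N) (hpY : ¬ p ∣ Nat.card Y)
    (hcop : (Nat.card N).Coprime (Nat.card Y))
    (hfix₁ : ∀ a ∈ N, x₁ * a = a * x₁ → a = 1) (hfix₂ : ∀ a ∈ N, x₂ * a = a * x₂ → a = 1) :
    ∀ z ∈ closure ({x₁, x₂} : Set G), ∀ y ∈ Y, ∀ a ∈ N,
      (z * y * z⁻¹ * y⁻¹) * a = a * (z * y * z⁻¹ * y⁻¹) := by
  have hle : closure ({x₁, x₂} : Set G) ≤ bgfpfKer N Y := by
    rw [closure_le]
    intro z hz
    rcases hz with rfl | hz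
    · exact ⟨hx₁N, hx₁Y, fun y hy => mem_centralizer_iff.2 (fun a ha =>
        (bg_fpf_comm_centralizes hodd hp N Y z hNnil hYN hx₁N hx₁Y hx₁p hpN hpY hcop hfix₁
          y hy a ha).symm)⟩
    · rw [Set.mem_singleton_iff] at hz
      subst hz
      exact ⟨hx₂N, hx₂Y, fun y hy => mem_centralizer_iff.2 (fun a ha =>
        (bg_fpf_comm_centralizes hodd hp N Y z hNnil hYN hx₂N hx₂Y hx₂p hpN hpY hcop hfix₂
          y hy a ha).symm)⟩
  intro z hz y hy a ha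
  exact (mem_centralizer_iff.1 ((hle hz).2.2 y hy) a ha).symm

end Cfsg.Agent.Helper55
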