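import Mathlib
import Cfsg.Agent.Helper3.FHDefs

set_option autoImplicit false

/-! PIECE P3 of CALL S1142-LA (helper3, Feit–Higman): `H` contains the algebra generated by
`a` and `b`. -/

namespace Cfsg.Agent.Helper55

open Cfsg.Agent.Helper3.FH Real

variable {Ω : Type*} [Fintype Ω] [DecidableEq Ω]

theorem fh3_memA (C : HeckeCfg Ω) (j : ℕ) (hj : j ≤ C.m) : altProd C.a C.b j ∈ C.H :=
  Submodule.subset_span (Or.inl ⟨j, hj, rfl⟩)

theorem fh3_memB (C : HeckeCfg Ω) (j : ℕ) (hj : j ≤ C.m) : altProd C.b C.a j ∈ C.H :=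
  Submodule.subset_span (Or.inr ⟨j, hj, rfl⟩)

theorem fh3_swap_H (C : HeckeCfg Ω) : C.swap.H = C.H := by
  unfold HeckeCfg.H
  simp only [HeckeCfg.swap_a, HeckeCfg.swap_b, HeckeCfg.swap_m]
  rw [Set.union_comm]

/-- `a * A_j ∈ H` for `j ≤ m`. -/
theorem fh3_a_mul_A (C : HeckeCfg Ω) (j : ℕ) (hj : j ≤ C.m) :
    C.a * altProd C.a C.b j ∈ C.H := by
  cases j with
  | zero =>
    rw [altProd_zero, mul_one]
    have := fh3_memA C 1 (by have := C.hm; omega)
    rwa [altProd_one] at this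
  | succ k =>
    rw [altProd_succ, ← mul_assoc, C.a_sq, add_mul, smul_mul_assoc, one_mul, smul_mul_assoc,
      ← altProd_succ]
    exact C.H.add_mem (C.H.smul_mem _ (fh3_memB C k (by omega)))
      (C.H.smul_mem _ (fh3_memA C (k + 1) hj))

/-- `a * H ⊆ H`. -/
theorem fh3_a_mul (C : HeckeCfg Ω) (h : Matrix Ω Ω ℝ) (hh : h ∈ C.H) : C.a * h ∈ C.H := by
  unfold HeckeCfg.H at hh
  induction hh using Submodule.span_induction with
  | mem x hx =>
    rcases hx with ⟨j, hj, rfl⟩ | ⟨j, hj, rfl⟩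
    · exact fh3_a_mul_A C j hj
    · rcases Nat.lt_or_ge j C.m with hlt | hge
      · rw [← altProd_succ]
        exact fh3_memA C (j + 1) hlt
      · have hjm : j = C.m := le_antisymm hj hge
        rw [hjm, ← C.braid]
        exact fh3_a_mul_A C C.m le_rfl
  | zero => rw [mul_zero]; exact C.H.zero_mem
  | add x y hx hy ihx ihy => rw [mul_add]; exact C.H.add_mem ihx ihy
  | smul r x hx ih => rw [mul_smul_comm]; exact C.H.smul_mem r ih

/-- `b * H ⊆ H`. -/
theorem fh3_b_mul (C : HeckeCfg Ω) (h : Matrix Ω Ω ℝ) (hh : h ∈ C.H) : C.b * h ∈ C.H := by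
  have := fh3_a_mul C.swap h (by rw [fh3_swap_H]; exact hh)
  rw [fh3_swap_H] at this
  exact this

/-- PIECE P3 of CALL S1142-LA. -/
theorem fh_adjoin_le_H (C : HeckeCfg Ω) (M : Matrix Ω Ω ℝ)
    (hM : M ∈ Algebra.adjoin ℝ ({C.a, C.b} : Set (Matrix Ω Ω ℝ))) : M ∈ C.H := by
  have key : ∀ h ∈ C.H, M * h ∈ C.H := by
    induction hM using Algebra.adjoin_induction with
    | mem x hx =>
      intro h hh
      rcases hx with rfl | hx
      · exact fh3_a_mul C h hh
      · rw [Set.mem_singleton_iff] at hx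
        rw [hx]
        exact fh3_b_mul C h hh
    | algebraMap r =>
      intro h hh
      rw [Algebra.algebraMap_eq_smul_one, smul_mul_assoc, one_mul]
      exact C.H.smul_mem r hh
    | add x y hx hy ihx ihy =>
      intro h hh
      rw [add_mul]
      exact C.H.add_mem (ihx h hh) (ihy h hh)
    | mul x y hx hy ihx ihy =>
      intro h hh
      rw [mul_assoc]
      exact ihx _ (ihy h hh)
  have h1 := key 1 (by
    have := fh3_memA C 0 (Nat.zero_le _)
    rwa [altProd_zero] at this)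
  rwa [mul_one] at h1

end Cfsg.Agent.Helper55
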