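import Mathlib
import Cfsg.Agent.Helper3.FHDefs

set_option autoImplicit false

/-! PIECE P4 of CALL S1142-LA (helper3, Feit–Higman): Parseval's identity in the orthogonal basis
of the reduced alternating products. -/

namespace Cfsg.Agent.Helper55

open Cfsg.Agent.Helper3.FH Real

variable {Ω : Type*} [Fintype Ω] [DecidableEq Ω]

theorem fh4_ip_comm (M N : Matrix Ω Ω ℝ) :
    (M.transpose * N).trace = (N.transpose * M).trace := by
  rw [← Matrix.trace_transpose, Matrix.transpose_mul, Matrix.transpose_transpose]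

theorem fh4_ip_left (R I : Finset ℕ) (c d : ℕ → ℝ) (A B : ℕ → Matrix Ω Ω ℝ)
    (N : Matrix Ω Ω ℝ) :
    ((∑ k ∈ R, c k • A k + ∑ k ∈ I, d k • B k).transpose * N).trace
      = ∑ k ∈ R, c k * ((A k).transpose * N).trace
        + ∑ k ∈ I, d k * ((B k).transpose * N).trace := by
  rw [Matrix.transpose_add, Matrix.add_mul, Matrix.trace_add, Matrix.transpose_sum,
    Matrix.transpose_sum, Matrix.sum_mul, Matrix.sum_mul, Matrix.trace_sum, Matrix.trace_sum]
  congr 1 <;>
  · apply Finset.sum_congr rfl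
    intro k _
    rw [Matrix.transpose_smul, Matrix.smul_mul, Matrix.trace_smul, smul_eq_mul]

theorem fh4_ip_right (M : Matrix Ω Ω ℝ) (R I : Finset ℕ) (c d : ℕ → ℝ)
    (A B : ℕ → Matrix Ω Ω ℝ) :
    (M.transpose * (∑ k ∈ R, c k • A k + ∑ k ∈ I, d k • B k)).trace
      = ∑ k ∈ R, c k * (M.transpose * A k).trace
        + ∑ k ∈ I, d k * (M.transpose * B k).trace := by
  rw [Matrix.mul_add, Matrix.trace_add, Matrix.mul_sum, Matrix.mul_sum, Matrix.trace_sum,
    Matrix.trace_sum]
  congr 1 <;>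
  · apply Finset.sum_congr rfl
    intro k _
    rw [Matrix.mul_smul, Matrix.trace_smul, smul_eq_mul]

theorem fh4_altProd_pos (x y : ℝ) (hx : 0 < x) (hy : 0 < y) (k : ℕ) : 0 < altProd x y k := by
  induction k generalizing x y with
  | zero => rw [altProd_zero]; exact one_pos
  | succ k ih => rw [altProd_succ]; exact mul_pos hx (ih y x hy hx)

/-- Every element of `H` is a combination of the `A_k` (`k ≤ m`) and the `B_k` (`1 ≤ k < m`). -/
theorem fh4_rep (C : HeckeCfg Ω) (E : Matrix Ω Ω ℝ) (hE : E ∈ C.H) :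
    ∃ c d : ℕ → ℝ, E = ∑ k ∈ Finset.range (C.m + 1), c k • altProd C.a C.b k
      + ∑ k ∈ Finset.Ico 1 C.m, d k • altProd C.b C.a k := by
  have hA : ∀ j ≤ C.m, ∃ c d : ℕ → ℝ, altProd C.a C.b j
      = ∑ k ∈ Finset.range (C.m + 1), c k • altProd C.a C.b k
      + ∑ k ∈ Finset.Ico 1 C.m, d k • altProd C.b C.a k := by
    intro j hj
    refine ⟨fun k => if k = j then 1 else 0, fun _ => 0, ?_⟩
    beta_reduce
    rw [Finset.sum_eq_single j (fun k _ hk => by rw [if_neg hk, zero_smul])
      (fun h => absurd (Finset.mem_range.mpr (by omega)) h),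
      Finset.sum_eq_zero (fun k _ => zero_smul _ _), if_pos rfl, one_smul, add_zero]
  unfold HeckeCfg.H at hE
  induction hE using Submodule.span_induction with
  | mem x hx =>
    rcases hx with ⟨j, hj, rfl⟩ | ⟨j, hj, rfl⟩
    · exact hA j hj
    · rcases Nat.eq_zero_or_pos j with h0 | hpos
      · rw [h0, altProd_zero]
        have := hA 0 (Nat.zero_le _)
        rwa [altProd_zero] at this
      · rcases Nat.lt_or_ge j C.m with hlt | hge
        · refine ⟨fun _ => 0, fun k => if k = j then 1 else 0, ?_⟩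
          beta_reduce
          rw [Finset.sum_eq_single j (fun k _ hk => by rw [if_neg hk, zero_smul])
            (fun h => absurd (Finset.mem_Ico.mpr ⟨hpos, hlt⟩) h),
            Finset.sum_eq_zero (fun k _ => zero_smul _ _), if_pos rfl, one_smul, zero_add]
        · have hjm : j = C.m := le_antisymm hj hge
          rw [hjm, ← C.braid]
          exact hA C.m le_rfl
  | zero =>
    refine ⟨fun _ => 0, fun _ => 0, ?_⟩
    beta_reduce
    rw [Finset.sum_eq_zero (fun k _ => zero_smul _ _),
      Finset.sum_eq_zero (fun k _ => zero_smul _ _), add_zero]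
  | add x y hx hy ihx ihy =>
    obtain ⟨c, d, h1⟩ := ihx
    obtain ⟨c', d', h2⟩ := ihy
    refine ⟨fun k => c k + c' k, fun k => d k + d' k, ?_⟩
    simp only [add_smul, Finset.sum_add_distrib]
    rw [h1, h2]
    abel
  | smul r x hx ih =>
    obtain ⟨c, d, h1⟩ := ih
    refine ⟨fun k => r * c k, fun k => r * d k, ?_⟩
    simp only [mul_smul]
    rw [← Finset.smul_sum, ← Finset.smul_sum, ← smul_add, ← h1]

/-- PIECE P4 of CALL S1142-LA. -/
theorem fh_parseval (C : HeckeCfg Ω) [Nonempty Ω]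
    (haa : ∀ i j, i ≤ C.m → j ≤ C.m →
      ((altProd C.a C.b i).transpose * altProd C.a C.b j).trace =
        if i = j then (Fintype.card Ω : ℝ) * altProd (C.s : ℝ) (C.t : ℝ) i else 0)
    (hbb : ∀ i j, i ≤ C.m → j ≤ C.m →
      ((altProd C.b C.a i).transpose * altProd C.b C.a j).trace =
        if i = j then (Fintype.card Ω : ℝ) * altProd (C.t : ℝ) (C.s : ℝ) i else 0)
    (hab : ∀ i j, 1 ≤ i → i ≤ C.m → 1 ≤ j → j < C.m →
      ((altProd C.a C.b i).transpose * altProd C.b C.a j).trace = 0)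
    (E : Matrix Ω Ω ℝ) (hE : E ∈ C.H) :
    (Fintype.card Ω : ℝ) * (E.transpose * E).trace =
      ∑ k ∈ Finset.range (C.m + 1),
          ((altProd C.a C.b k).transpose * E).trace ^ 2 / altProd (C.s : ℝ) (C.t : ℝ) k
        + ∑ k ∈ Finset.Ico 1 C.m,
          ((altProd C.b C.a k).transpose * E).trace ^ 2 / altProd (C.t : ℝ) (C.s : ℝ) k := by
  obtain ⟨c, d, hrep⟩ := fh4_rep C E hE
  have hs0 : (0 : ℝ) < C.s := by
    have := C.hs
    exact_mod_cast (by omega : 0 < C.s)
  have ht0 : (0 : ℝ) < C.t := by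
    have := C.ht
    exact_mod_cast (by omega : 0 < C.t)
  have hq : ∀ k, altProd (C.s : ℝ) (C.t : ℝ) k ≠ 0 :=
    fun k => (fh4_altProd_pos _ _ hs0 ht0 k).ne'
  have hq' : ∀ k, altProd (C.t : ℝ) (C.s : ℝ) k ≠ 0 :=
    fun k => (fh4_altProd_pos _ _ ht0 hs0 k).ne'
  -- `A_i ⊥ B_k` for `i ≤ m`, `1 ≤ k < m`
  have hAB0 : ∀ i, i ≤ C.m → ∀ k, 1 ≤ k → k < C.m →
      ((altProd C.a C.b i).transpose * altProd C.b C.a k).trace = 0 := by
    intro i hi k hk1 hk
    rcases Nat.eq_zero_or_pos i with h0 | hpos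
    · have h1 := hbb 0 k (Nat.zero_le _) hk.le
      rw [if_neg (by omega), altProd_zero] at h1
      rw [h0, altProd_zero]
      exact h1
    · exact hab i k hpos hi hk1 hk
  have hAE : ∀ i ∈ Finset.range (C.m + 1), ((altProd C.a C.b i).transpose * E).trace
      = c i * ((Fintype.card Ω : ℝ) * altProd (C.s : ℝ) (C.t : ℝ) i) := by
    intro i hi
    have hi' : i ≤ C.m := by rw [Finset.mem_range] at hi; omega
    rw [hrep, fh4_ip_right]
    rw [Finset.sum_eq_single i (fun k hk hki => by
        have hk' : k ≤ C.m := by rw [Finset.mem_range] at hk; omega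
        rw [haa i k hi' hk', if_neg (fun h => hki h.symm), mul_zero])
      (fun h => absurd hi h),
      Finset.sum_eq_zero (fun k hk => by
        rw [Finset.mem_Ico] at hk
        rw [hAB0 i hi' k hk.1 hk.2, mul_zero]),
      haa i i hi' hi', if_pos rfl, add_zero]
  have hBE : ∀ j ∈ Finset.Ico 1 C.m, ((altProd C.b C.a j).transpose * E).trace
      = d j * ((Fintype.card Ω : ℝ) * altProd (C.t : ℝ) (C.s : ℝ) j) := by
    intro j hj
    have hj' := Finset.mem_Ico.mp hj
    rw [hrep, fh4_ip_right]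
    rw [Finset.sum_eq_zero (fun k hk => by
        have hk' : k ≤ C.m := by rw [Finset.mem_range] at hk; omega
        rw [fh4_ip_comm, hAB0 k hk' j hj'.1 hj'.2, mul_zero]),
      Finset.sum_eq_single j (fun k hk hkj => by
        rw [Finset.mem_Ico] at hk
        rw [hbb j k hj'.2.le hk.2.le, if_neg (fun h => hkj h.symm), mul_zero])
      (fun h => absurd hj h),
      hbb j j hj'.2.le hj'.2.le, if_pos rfl, zero_add]
  have hEE : (E.transpose * E).trace
      = ∑ k ∈ Finset.range (C.m + 1), c k * ((altProd C.a C.b k).transpose * E).trace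
        + ∑ k ∈ Finset.Ico 1 C.m, d k * ((altProd C.b C.a k).transpose * E).trace := by
    have h := fh4_ip_left (Finset.range (C.m + 1)) (Finset.Ico 1 C.m) c d
      (fun k => altProd C.a C.b k) (fun k => altProd C.b C.a k) E
    rw [← hrep] at h
    exact h
  rw [hEE, mul_add, Finset.mul_sum, Finset.mul_sum]
  congr 1
  · apply Finset.sum_congr rfl
    intro k hk
    rw [hAE k hk]
    have := hq k
    field_simp
  · apply Finset.sum_congr rfl
    intro k hk
    rw [hBE k hk]
    have := hq' k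
    field_simp

end Cfsg.Agent.Helper55
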