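import Mathlib
import Cfsg.Agent.Helper94.ULag
import Cfsg.Agent.Helper94.USub
import Cfsg.Agent.Helper94.UK
import Cfsg.Agent.Helper97.UNot
import Cfsg.Agent.Helper5.UnitSU

set_option autoImplicit false
open Cfsg Cfsg.Geo Matrix
open Cfsg.Agent.Helper94
open scoped MatrixGroups

namespace Cfsg.Agent.Helper55

universe u

variable {F : Type u} [Field F] {ι : Type} [Fintype ι] [DecidableEq ι]
variable {σ : F ≃+* F} {f : (ι → F) → (ι → F) → F}

/-- CAU (CALL S5984) -/
theorem bu_cauchy [Fintype F] {q r k : ℕ} (hF : Fintype.card F = q ^ 2) (hr : r.Prime) (hk : Odd k)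
    (hrk : r ∣ q ^ k + 1) (hnt : ∀ j, 0 < j → j ≤ k → r ∣ q ^ (2 * j) - 1 → j = k) :
    ∃ a : GL (Fin k) F, a ∈ GU k F q ∧ a ^ r = 1 ∧
      ∀ v : Fin k → F, (a : Matrix (Fin k) (Fin k) F) *ᵥ v = v → v = 0 := by
  classical
  haveI : Fact r.Prime := ⟨hr⟩
  have hk1 : 1 ≤ k := hk.pos
  have hdvd : r ∣ Nat.card (GU k F q) := by
    rw [Helper5.card_GU hF k]
    apply Dvd.dvd.mul_left
    have hmem : k - 1 ∈ Finset.range k := Finset.mem_range.mpr (by omega)
    have hev : Even (k - 1) := by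
      obtain ⟨t, ht⟩ := hk
      exact ⟨t, by omega⟩
    have h1 := Finset.dvd_prod_of_mem
      (fun i => if Even i then q ^ (i + 1) + 1 else q ^ (i + 1) - 1) hmem
    simp only [if_pos hev] at h1
    rw [Nat.sub_add_cancel hk1] at h1
    exact hrk.trans h1
  obtain ⟨a, ha⟩ := exists_prime_orderOf_dvd_card' r hdvd
  have har : (a : GL (Fin k) F) ^ r = 1 := by
    have h1 : a ^ r = 1 := by rw [← ha]; exact pow_orderOf_eq_one a
    have h2 := congrArg Subtype.val h1
    exact h2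
  have hane : (a : GL (Fin k) F) ≠ 1 := by
    intro h
    have h1 : a = 1 := Subtype.ext h
    rw [h1, orderOf_one] at ha
    exact hr.one_lt.ne ha
  refine ⟨a, a.2, har, ?_⟩
  obtain ⟨A, hA⟩ : ∃ A : Matrix (Fin k) (Fin k) F,
      A = ((a : GL (Fin k) F) : Matrix (Fin k) (Fin k) F) := ⟨_, rfl⟩
  rw [← hA]
  have hAr : A ^ r = 1 := by
    rw [hA, ← Units.val_pow_eq_pow_val, har]
    rfl
  have hA1 : A ≠ 1 := by
    intro h
    apply hane
    apply Units.ext
    rw [← hA, h]
    rfl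
  obtain ⟨g, hg⟩ : ∃ g : Function.End (Fin k → F), g = fun v => A *ᵥ v := ⟨_, rfl⟩
  have hgpow : ∀ n : ℕ, ∀ v, (g ^ n) v = (A ^ n) *ᵥ v := by
    intro n
    induction n with
    | zero =>
      intro v
      rw [pow_zero, pow_zero, Matrix.one_mulVec]
      rfl
    | succ n ih =>
      intro v
      rw [pow_succ', pow_succ']
      show g ((g ^ n) v) = _
      rw [ih, hg]
      show A *ᵥ (A ^ n *ᵥ v) = _
      rw [Matrix.mulVec_mulVec]
  have hgr : g ^ r ^ 1 = 1 := by
    rw [pow_one]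
    funext v
    rw [hgpow, hAr, Matrix.one_mulVec]
    rfl
  have hmod := Equiv.Perm.card_fixedPoints_modEq (p := r) (n := 1) hgr
  obtain ⟨W, hW⟩ : ∃ W : Submodule F (Fin k → F),
      W = LinearMap.ker (Matrix.mulVecLin (A - 1)) := ⟨_, rfl⟩
  have hWmem : ∀ v, v ∈ W ↔ A *ᵥ v = v := by
    intro v
    rw [hW, LinearMap.mem_ker, Matrix.mulVecLin_apply, Matrix.sub_mulVec, Matrix.one_mulVec,
      sub_eq_zero]
  have hfix : Function.fixedPoints g = (W : Set (Fin k → F)) := by
    ext v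
    show g v = v ↔ v ∈ W
    rw [hWmem, hg]
  have hc1 : Fintype.card (Fin k → F) = (q ^ 2) ^ k := by
    rw [Fintype.card_pi, Finset.prod_const, Finset.card_univ, Fintype.card_fin, hF]
  have hc2 : Nat.card (Function.fixedPoints g) = (q ^ 2) ^ Module.finrank F W := by
    rw [hfix]
    show Nat.card W = _
    rw [Module.natCard_eq_pow_finrank (K := F) (V := W), Nat.card_eq_fintype_card, hF]
  rw [hc1] at hmod
  rw [Fintype.card_eq_nat_card, hc2] at hmod
  obtain ⟨d, hd⟩ : ∃ d : ℕ, d = Module.finrank F W := ⟨_, rfl⟩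
  rw [← hd] at hmod
  have hdk : d ≤ k := by
    rw [hd]
    have := Submodule.finrank_le W
    rwa [Module.finrank_fintype_fun_eq_card, Fintype.card_fin] at this
  have hdk' : d ≠ k := by
    intro h
    have hWtop : W = ⊤ := by
      apply Submodule.eq_top_of_finrank_eq
      rw [← hd, h, Module.finrank_fintype_fun_eq_card, Fintype.card_fin]
    apply hA1
    apply Matrix.toLin'.injective
    apply LinearMap.ext
    intro v
    rw [Matrix.toLin'_apply, Matrix.toLin'_one, LinearMap.id_apply]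
    exact (hWmem v).mp (by rw [hWtop]; exact Submodule.mem_top)
  have hrq : ¬ r ∣ q := by
    intro h
    have h1 : r ∣ q ^ k := dvd_pow h (by omega)
    have h2 : r ∣ 1 := (Nat.dvd_add_right h1).mp hrk
    exact hr.one_lt.ne' (Nat.dvd_one.mp h2)
  have hq0 : 0 < q := by
    rcases Nat.eq_zero_or_pos q with h | h
    · exact absurd (h ▸ dvd_zero r) hrq
    · exact h
  have hsplit : (q ^ 2) ^ k = (q ^ 2) ^ d * q ^ (2 * (k - d)) := by
    rw [← pow_mul, ← pow_mul, ← pow_add]
    congr 1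
    omega
  have hge : 1 ≤ q ^ (2 * (k - d)) := Nat.one_le_pow _ _ hq0
  have h3 : r ∣ (q ^ 2) ^ d * (q ^ (2 * (k - d)) - 1) := by
    have h4 := (Nat.modEq_iff_dvd' (by
      rw [hsplit]; exact Nat.le_mul_of_pos_right _ hge)).mp hmod.symm
    rw [hsplit] at h4
    rw [Nat.mul_sub, mul_one]
    exact h4
  have h5 : r ∣ q ^ (2 * (k - d)) - 1 := by
    rcases (Nat.Prime.dvd_mul hr).mp h3 with h | h
    · exact absurd (hr.dvd_of_dvd_pow (hr.dvd_of_dvd_pow h)) hrq
    · exact h
  have h6 := hnt (k - d) (by omega) (by omega) h5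
  have hd0 : d = 0 := by omega
  intro v hv
  have hvW : v ∈ W := (hWmem v).mpr hv
  have hWbot : W = ⊥ := by
    apply Submodule.finrank_eq_zero.mp
    rw [← hd, hd0]
  rw [hWbot] at hvW
  exact (Submodule.mem_bot F).mp hvW

end Cfsg.Agent.Helper55
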