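import Mathlib
import Cfsg.Agent.Helper94.ULag
import Cfsg.Agent.Helper94.USub
import Cfsg.Agent.Helper94.UK
import Cfsg.Agent.Helper97.UNot
import Cfsg.Agent.Helper5.UnitSU

set_option autoImplicit false
open Cfsg Cfsg.Geo Matrix
open Cfsg.Agent.Helper94
open scoped MatrixGroups

namespace Cfsg.Agent.Helper55

universe u

variable {F : Type u} [Field F] {ι : Type} [Fintype ι] [DecidableEq ι]
variable {σ : F ≃+* F} {f : (ι → F) → (ι → F) → F}

/-- the block embedding `M ↦ M ⊕ 1` of matrices, through an identification of index types -/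
def buEmbHom {k n : ℕ} (e : Fin k ⊕ Fin (n - k) ≃ Fin n) :
    Matrix (Fin k) (Fin k) F →* Matrix (Fin n) (Fin n) F where
  toFun M := (Matrix.fromBlocks M 0 0 1).submatrix e.symm e.symm
  map_one' := by rw [Matrix.fromBlocks_one, Matrix.submatrix_one_equiv]
  map_mul' M N := by
    rw [Matrix.submatrix_mul_equiv, Matrix.fromBlocks_multiply]
    simp

theorem buEmbHom_mulVec {k n : ℕ} (e : Fin k ⊕ Fin (n - k) ≃ Fin n)
    (M : Matrix (Fin k) (Fin k) F) (v : Fin n → F) :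
    buEmbHom e M *ᵥ v =
      (Sum.elim (M *ᵥ (v ∘ e ∘ Sum.inl)) (v ∘ e ∘ Sum.inr)) ∘ e.symm := by
  show ((Matrix.fromBlocks M 0 0 1).submatrix e.symm e.symm) *ᵥ v = _
  rw [Matrix.submatrix_mulVec_equiv, Matrix.fromBlocks_mulVec]
  simp only [Matrix.zero_mulVec, add_zero, zero_add, Matrix.one_mulVec, Equiv.symm_symm]
  rfl

theorem buEmbHom_mulVec_inl {k n : ℕ} (e : Fin k ⊕ Fin (n - k) ≃ Fin n)
    (M : Matrix (Fin k) (Fin k) F) (v : Fin n → F) (i : Fin k) :
    (buEmbHom e M *ᵥ v) (e (Sum.inl i)) = (M *ᵥ (v ∘ e ∘ Sum.inl)) i := by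
  rw [buEmbHom_mulVec]
  simp

theorem buEmbHom_mulVec_inr {k n : ℕ} (e : Fin k ⊕ Fin (n - k) ≃ Fin n)
    (M : Matrix (Fin k) (Fin k) F) (v : Fin n → F) (j : Fin (n - k)) :
    (buEmbHom e M *ᵥ v) (e (Sum.inr j)) = v (e (Sum.inr j)) := by
  rw [buEmbHom_mulVec]
  simp

theorem buHerm_split {q k n : ℕ} (e : Fin k ⊕ Fin (n - k) ≃ Fin n) (u v : Fin n → F) :
    hermForm n F q u v = hermForm k F q (u ∘ e ∘ Sum.inl) (v ∘ e ∘ Sum.inl) +
      ∑ j : Fin (n - k), u (e (Sum.inr j)) * (v (e (Sum.inr j))) ^ q := by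
  unfold hermForm
  rw [← Equiv.sum_comp e, Fintype.sum_sum_type]
  rfl

/-- EMB (CALL S5984) -/
theorem bu_embed {q k n : ℕ} (hk : k ≤ n) (a : GL (Fin k) F) (ha : a ∈ GU k F q)
    (hfix : ∀ v : Fin k → F, (a : Matrix (Fin k) (Fin k) F) *ᵥ v = v → v = 0) :
    ∃ x : GL (Fin n) F, x ∈ GU n F q ∧
      (x : Matrix (Fin n) (Fin n) F).det = (a : Matrix (Fin k) (Fin k) F).det ∧
      (∀ j : ℕ, a ^ j = 1 → x ^ j = 1) ∧
      Module.finrank F (LinearMap.ker (Matrix.mulVecLin ((x : Matrix (Fin n) (Fin n) F) - 1))) = n - k := by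
  obtain ⟨e, -⟩ : ∃ e : Fin k ⊕ Fin (n - k) ≃ Fin n, e = e :=
    ⟨finSumFinEquiv.trans (finCongr (by omega)), rfl⟩
  have hval : ((Units.map (buEmbHom e) a : GL (Fin n) F) : Matrix (Fin n) (Fin n) F) =
      buEmbHom e (a : Matrix (Fin k) (Fin k) F) := rfl
  refine ⟨Units.map (buEmbHom e) a, ?_, ?_, ?_, ?_⟩
  · intro u v
    show hermForm n F q (buEmbHom e (a : Matrix (Fin k) (Fin k) F) *ᵥ u)
      (buEmbHom e (a : Matrix (Fin k) (Fin k) F) *ᵥ v) = hermForm n F q u v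
    rw [buHerm_split e, buHerm_split e u v]
    have h1 : (buEmbHom e (a : Matrix (Fin k) (Fin k) F) *ᵥ u) ∘ e ∘ Sum.inl =
        (a : Matrix (Fin k) (Fin k) F) *ᵥ (u ∘ e ∘ Sum.inl) := by
      funext i
      exact buEmbHom_mulVec_inl e _ u i
    have h2 : (buEmbHom e (a : Matrix (Fin k) (Fin k) F) *ᵥ v) ∘ e ∘ Sum.inl =
        (a : Matrix (Fin k) (Fin k) F) *ᵥ (v ∘ e ∘ Sum.inl) := by
      funext i
      exact buEmbHom_mulVec_inl e _ v i
    rw [h1, h2]
    have h3 := ha (u ∘ e ∘ Sum.inl) (v ∘ e ∘ Sum.inl)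
    have h4 : hermForm k F q ((a : Matrix (Fin k) (Fin k) F) *ᵥ (u ∘ e ∘ Sum.inl))
        ((a : Matrix (Fin k) (Fin k) F) *ᵥ (v ∘ e ∘ Sum.inl)) =
        hermForm k F q (u ∘ e ∘ Sum.inl) (v ∘ e ∘ Sum.inl) := h3
    rw [h4]
    congr 1
    refine Finset.sum_congr rfl (fun j _ => ?_)
    rw [buEmbHom_mulVec_inr, buEmbHom_mulVec_inr]
  · rw [hval]
    show ((Matrix.fromBlocks (a : Matrix (Fin k) (Fin k) F) 0 0 1).submatrix e.symm e.symm).det = _
    rw [Matrix.det_submatrix_equiv_self, Matrix.det_fromBlocks_zero₂₁, Matrix.det_one, mul_one]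
  · intro j hj
    rw [← map_pow, hj, map_one]
  · rw [hval]
    have hker : LinearMap.ker (Matrix.mulVecLin
        (buEmbHom e (a : Matrix (Fin k) (Fin k) F) - 1)) =
        LinearMap.ker (LinearMap.funLeft F F (e ∘ Sum.inl)) := by
      ext v
      rw [LinearMap.mem_ker, LinearMap.mem_ker, Matrix.mulVecLin_apply, Matrix.sub_mulVec,
        Matrix.one_mulVec, sub_eq_zero]
      constructor
      · intro h
        have h1 : (a : Matrix (Fin k) (Fin k) F) *ᵥ (v ∘ e ∘ Sum.inl) = v ∘ e ∘ Sum.inl := by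
          funext i
          rw [← buEmbHom_mulVec_inl e _ v i, h]
          rfl
        exact hfix _ h1
      · intro h
        have h0 : v ∘ e ∘ Sum.inl = 0 := h
        rw [buEmbHom_mulVec, h0, Matrix.mulVec_zero]
        funext i
        obtain ⟨s, rfl⟩ := e.surjective i
        rcases s with s | s
        · have := congrFun h0 s
          simpa using this.symm
        · simp
    rw [hker]
    have h1 := LinearMap.finrank_range_add_finrank_ker
      (LinearMap.funLeft F F (e ∘ Sum.inl) : (Fin n → F) →ₗ[F] (Fin k → F))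
    have h2 : LinearMap.range
        (LinearMap.funLeft F F (e ∘ Sum.inl) : (Fin n → F) →ₗ[F] (Fin k → F)) = ⊤ :=
      LinearMap.range_eq_top.mpr (LinearMap.funLeft_surjective_of_injective F F _
        (e.injective.comp Sum.inl_injective))
    rw [h2, finrank_top, Module.finrank_fin_fun, Module.finrank_fin_fun] at h1
    omega

end Cfsg.Agent.Helper55
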