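import Mathlib
import Cfsg.Agent.Lead.LWDefs

set_option autoImplicit false

/-! PIECE B3 of CALL S0747 (lead): a good set for the group induced on `Φ` is a good set
for `G`. -/

namespace Cfsg.Agent.Helper55.LWB3

open Cfsg.Agent.Lead.LW

variable {α : Type*} [Fintype α] [DecidableEq α]

-- PIECE B3
theorem good_of_induced (K G : Subgroup (Equiv.Perm α)) (hKG : K ≤ G) (Φ : Finset α) (k : ℕ)
    (h : Good (induced K Φ) k) : Good G k := by
  unfold Good at h ⊢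
  obtain ⟨Δ', hcard, hΔ'⟩ := h
  obtain ⟨f, hf⟩ : ∃ f : ↥Δ' → ↥(Δ'.map (Function.Embedding.subtype (· ∈ Φ))),
      ∀ x, (f x : α) = ((x : ↥Φ) : α) :=
    ⟨fun x => ⟨((x : ↥Φ) : α), Finset.mem_map.mpr ⟨x.1, x.2, rfl⟩⟩, fun x => rfl⟩
  have hfb : Function.Bijective f := by
    constructor
    · intro x y hxy
      have h1 : ((x : ↥Φ) : α) = ((y : ↥Φ) : α) := by
        rw [← hf x, ← hf y, hxy]
      exact Subtype.ext (Subtype.ext h1)
    · rintro ⟨y, hy⟩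
      obtain ⟨a, ha, rfl⟩ := Finset.mem_map.mp hy
      exact ⟨⟨a, ha⟩, Subtype.ext (hf _)⟩
  obtain ⟨e, he⟩ : ∃ e : ↥Δ' ≃ ↥(Δ'.map (Function.Embedding.subtype (· ∈ Φ))),
      ∀ x, (e x : α) = ((x : ↥Φ) : α) :=
    ⟨Equiv.ofBijective f hfb, fun x => hf x⟩
  have he' : ∀ y, (((e.symm y : ↥Δ') : ↥Φ) : α) = (y : α) := by
    intro y
    rw [← he (e.symm y), e.apply_symm_apply]
  refine ⟨Δ'.map (Function.Embedding.subtype _), by rw [Finset.card_map]; exact hcard, ?_⟩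
  intro σ hσ
  have hσ' : e.symm.permCongr σ ∈ alternatingGroup ↥Δ' := by
    rw [Equiv.Perm.mem_alternatingGroup, Equiv.Perm.sign_permCongr]
    exact Equiv.Perm.mem_alternatingGroup.mp hσ
  obtain ⟨g', hg', hg'x⟩ := hΔ' _ hσ'
  obtain ⟨g, hgK, hg⟩ := hg'
  refine ⟨g, hKG hgK, fun x => ?_⟩
  rw [← he' x, hg, hg'x]
  have h2 : (e.symm.permCongr σ) (e.symm x) = e.symm (σ x) := by
    simp [Equiv.permCongr_apply]
  rw [h2, he']

end Cfsg.Agent.Helper55.LWB3
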