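/-
helper55: generic lemmas for the abelian final configuration of Bender–Glauberman
Theorem 3.6 (for S1444): hyperplanes of an elementary abelian group acting coprimely on an
abelian group, and the norm map of an element of prime order.
-/
import Mathlib
import Cfsg.Agent.Helper70.FrobAct
import Cfsg.Agent.Helper35.CoprimeGen2
import Cfsg.Agent.Helper35.HallCoprime
import Cfsg.Agent.Helper22.Generation
import Cfsg.Agent.Helper22.Transitivity

set_option autoImplicit false

namespace Cfsg.Agent.Helper55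

open Subgroup
open scoped Pointwise commutatorElement

universe u

variable {X : Type u} [Group X]

/-- A nontrivial element of a cyclic group of prime order generates it. -/
theorem bg36_mem_zpowers_of_ne_one {x e : X} {r : ℕ} (hr : r.Prime) (hxr : orderOf x = r)
    (he : e ∈ zpowers x) (he1 : e ≠ 1) : x ∈ zpowers e := by
  have h1 : orderOf e ∣ r := hxr ▸ orderOf_dvd_of_mem_zpowers he
  have h2 : orderOf e = r := by
    rcases (Nat.dvd_prime hr).mp h1 with h | h
    · exact absurd (orderOf_eq_one_iff.mp h) he1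
    · exact h
  have hfin : Finite (zpowers x) := by
    apply Nat.finite_of_card_ne_zero
    rw [Nat.card_zpowers, hxr]; exact hr.ne_zero
  have h3 : zpowers e = zpowers x := by
    apply Subgroup.eq_of_le_of_card_ge (zpowers_le.mpr he)
    rw [Nat.card_zpowers, Nat.card_zpowers, h2, hxr]
  rw [h3]; exact mem_zpowers x

theorem bg36_comm_of_comm_pow {x e u : X} {r : ℕ} (hr : r.Prime) (hxr : orderOf x = r)
    (he : e ∈ zpowers x) (he1 : e ≠ 1) (h : e * u = u * e) : x * u = u * x := by
  have hx := bg36_mem_zpowers_of_ne_one hr hxr he he1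
  have h1 : zpowers e ≤ centralizer ({u} : Set X) := by
    rw [zpowers_le, mem_centralizer_singleton_iff]; exact h
  have h2 := h1 hx
  rw [mem_centralizer_singleton_iff] at h2
  exact h2

theorem bg36_mem_normalizer_of_pow {x e : X} {r : ℕ} (hr : r.Prime) (hxr : orderOf x = r)
    (he : e ∈ zpowers x) (he1 : e ≠ 1) {B : Subgroup X} (h : e ∈ normalizer (B : Set X)) :
    x ∈ normalizer (B : Set X) :=
  (zpowers_le.mpr h) (bg36_mem_zpowers_of_ne_one hr hxr he he1)

theorem bg36_centralizer_zpowers (x : X) :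
    centralizer ((zpowers x : Subgroup X) : Set X) = centralizer ({x} : Set X) := by
  rw [zpowers_eq_closure, centralizer_closure]

theorem bg36_mem_normalizer_inf {g : X} {A B : Subgroup X} (hA : g ∈ normalizer (A : Set X))
    (hB : g ∈ normalizer (B : Set X)) : g ∈ normalizer ((A ⊓ B : Subgroup X) : Set X) := by
  rw [mem_normalizer_iff] at *
  intro h
  rw [mem_inf, mem_inf, hA h, hB h]

theorem bg36_mem_normalizer_centralizer {g : X} {B : Subgroup X}
    (hB : g ∈ normalizer (B : Set X)) :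
    g ∈ normalizer ((centralizer (B : Set X) : Subgroup X) : Set X) := by
  rw [mem_normalizer_iff]
  intro h
  rw [mem_centralizer_iff, mem_centralizer_iff]
  have hB' := mem_normalizer_iff.mp hB
  constructor
  · intro hh b hb
    have hb' : g⁻¹ * b * g ∈ B := by
      rw [hB' (g⁻¹ * b * g)]
      have e : g * (g⁻¹ * b * g) * g⁻¹ = b := by group
      rw [e]; exact hb
    have h3 := hh _ hb'
    calc b * (g * h * g⁻¹) = g * ((g⁻¹ * b * g) * h) * g⁻¹ := by group
      _ = g * (h * (g⁻¹ * b * g)) * g⁻¹ := by rw [h3]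
      _ = g * h * g⁻¹ * b := by group
  · intro hh b hb
    have hb' : g * b * g⁻¹ ∈ B := (hB' b).mp hb
    have h3 := hh _ hb'
    calc b * h = g⁻¹ * ((g * b * g⁻¹) * (g * h * g⁻¹)) * g := by group
      _ = g⁻¹ * ((g * h * g⁻¹) * (g * b * g⁻¹)) * g := by rw [h3]
      _ = h * b := by group

theorem bg36_le_normalizer_of_comm {K B : Subgroup X}
    (hKab : ∀ a ∈ K, ∀ b ∈ K, a * b = b * a) (hBK : B ≤ K) : K ≤ normalizer (B : Set X) := by
  intro k hk
  rw [mem_normalizer_iff]
  intro h
  constructor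
  · intro hh
    have e : k * h * k⁻¹ = h := by rw [hKab k hk h (hBK hh)]; group
    rw [e]; exact hh
  · intro hh
    have h1 : k * h * k⁻¹ ∈ K := hBK hh
    have h2 : k * (k * h * k⁻¹) = (k * h * k⁻¹) * k := hKab k hk _ h1
    have h3 : h = k * h * k⁻¹ := by
      calc h = k⁻¹ * ((k * h * k⁻¹) * k) := by group
        _ = k⁻¹ * (k * (k * h * k⁻¹)) := by rw [← h2]
        _ = k * h * k⁻¹ := by group
    rw [h3]; exact hh

theorem bg36_isPGroup_of_pow {V : Subgroup X} {p : ℕ} (hVp : ∀ a ∈ V, a ^ p = 1) :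
    IsPGroup p V := by
  intro a
  exact ⟨1, by rw [pow_one]; exact Subtype.ext (by simpa using hVp a a.2)⟩

theorem bg36_card_dvd_of_cyclic {D : Subgroup X} {p : ℕ} (hcyc : IsCyclic D)
    (hexp : ∀ a ∈ D, a ^ p = 1) : Nat.card D ∣ p := by
  obtain ⟨g, hg⟩ := hcyc.exists_generator
  rw [← orderOf_eq_card_of_forall_mem_zpowers hg]
  apply orderOf_dvd_of_pow_eq_one
  exact Subtype.ext (by simpa using hexp g g.2)

theorem bg36_le_of_card_dvd_prime [Finite X] {D Q : Subgroup X} {p : ℕ} (hp : p.Prime)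
    (hD : Nat.card D ∣ p) {c : X} (hcD : c ∈ D) (hcQ : c ∈ Q) (hc : c ≠ 1) : D ≤ Q := by
  have h1 : Nat.card ↥(D ⊓ Q) ∣ Nat.card D := card_dvd_of_le inf_le_left
  have h2 : Nat.card ↥(D ⊓ Q) ≠ 1 := by
    intro h
    rw [card_eq_one] at h
    have : c ∈ D ⊓ Q := ⟨hcD, hcQ⟩
    rw [h] at this
    exact hc (mem_bot.mp this)
  have h3 : Nat.card ↥(D ⊓ Q) = p := by
    rcases (Nat.dvd_prime hp).mp (h1.trans hD) with h | h
    · exact absurd h h2
    · exact h
  have h4 : Nat.card D = p := Nat.dvd_antisymm hD (h3 ▸ h1)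
  have h5 : D ⊓ Q = D := eq_of_le_of_card_ge inf_le_left (by rw [h3, h4])
  rw [← h5]; exact inf_le_right

end Cfsg.Agent.Helper55
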