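/-
helper55: hyperplane and norm-map lemmas for the abelian final configuration of
Bender–Glauberman Theorem 3.6 (for S1444).
-/
import Cfsg.Agent.Helper55.BG36Ab1

set_option autoImplicit false

namespace Cfsg.Agent.Helper55

open Subgroup
open scoped Pointwise commutatorElement

universe u

variable {X : Type u} [Group X]

/-- Wrapper of `Helper70.frob_group_main`: if `U⟨x⟩` is Frobenius-like (`C_U(x) = 1`, `x` of
prime order), acts coprimely on the abelian group `H`, and `C_H(U) = 1`, then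
`|H| = |C_H(x)| ^ r`. -/
theorem bg36_frob_card [Finite X] {U H : Subgroup X} {x : X} {r : ℕ} (hr : r.Prime)
    (hxr : orderOf x = r)
    (hxU : x ∈ normalizer (U : Set X)) (hfpf : U ⊓ centralizer ({x} : Set X) = ⊥)
    (hUH : U ≤ normalizer (H : Set X)) (hxH : x ∈ normalizer (H : Set X))
    (hHab : ∀ a ∈ H, ∀ b ∈ H, a * b = b * a)
    (hcopU : (Nat.card H).Coprime (Nat.card U)) (hcopr : (Nat.card H).Coprime r)
    (hHU : H ⊓ centralizer (U : Set X) = ⊥) :
    Nat.card H = Nat.card ↥(H ⊓ centralizer ({x} : Set X)) ^ r := by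
  have hE1 : zpowers x ≠ ⊥ := by
    intro h
    rw [zpowers_eq_bot] at h
    rw [h, orderOf_one] at hxr
    exact hr.ne_one hxr.symm
  have hEU : zpowers x ≤ normalizer (U : Set X) := zpowers_le.mpr hxU
  have hEH : zpowers x ≤ normalizer (H : Set X) := zpowers_le.mpr hxH
  have hcardE : Nat.card (zpowers x) = r := by rw [Nat.card_zpowers, hxr]
  have hmain := (Cfsg.Agent.Helper70.frob_group_main U (zpowers x) H hE1
    (fun e he u hu => (mem_normalizer_iff.mp (hEU he) u).mp hu)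
    (fun e he he1 u hu hc => by
      have hxu := bg36_comm_of_comm_pow hr hxr he he1 hc
      have hmem : u ∈ U ⊓ centralizer ({x} : Set X) :=
        mem_inf.mpr ⟨hu, by rw [mem_centralizer_singleton_iff]; exact hxu.symm⟩
      rw [hfpf] at hmem
      exact mem_bot.mp hmem)
    (fun y hy h hh => (mem_normalizer_iff.mp ((sup_le hUH hEH) hy) h).mp hh)
    (Cfsg.Agent.Helper35.isSolvable_of_forall_comm hHab)
    (by
      have hdvd := Cfsg.Agent.Helper22.card_sup_dvd_of_le_normalizer hEU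
      rw [sup_comm, hcardE] at hdvd
      exact Nat.Coprime.coprime_dvd_right hdvd (Nat.Coprime.mul_right hcopr hcopU))).1
  have h1 : H ⊓ centralizer ((U ⊔ zpowers x : Subgroup X) : Set X) = ⊥ := by
    rw [eq_bot_iff, ← hHU]
    exact inf_le_inf_left _ (centralizer_le (by
      intro a ha
      exact (le_sup_left : U ≤ U ⊔ zpowers x) ha))
  rw [h1, hHU, bg36_centralizer_zpowers, hcardE, card_bot, one_pow, one_mul, mul_one] at hmain
  exact hmain

/-- `B` is a hyperplane of `K` (index `t`). -/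
def BgHyp (t : ℕ) (K B : Subgroup X) : Prop := B ≤ K ∧ Nat.card B * t = Nat.card K

theorem bg36_hyp_sup [Finite X] {t : ℕ} (ht : t.Prime) {K B0 B1 : Subgroup X}
    (h0 : BgHyp t K B0) (h1 : BgHyp t K B1) (hne : B0 ≠ B1) : B0 ⊔ B1 = K := by
  have hle : B0 ⊔ B1 ≤ K := sup_le h0.1 h1.1
  have hd1 : Nat.card B0 ∣ Nat.card ↥(B0 ⊔ B1) := card_dvd_of_le le_sup_left
  have hd2 : Nat.card ↥(B0 ⊔ B1) ∣ Nat.card K := card_dvd_of_le hle
  obtain ⟨m, hm⟩ := hd1
  have hpos : 0 < Nat.card B0 := Nat.card_pos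
  have hmt : m ∣ t := by
    rw [hm, ← h0.2] at hd2
    exact Nat.dvd_of_mul_dvd_mul_left hpos hd2
  rcases (Nat.dvd_prime ht).mp hmt with h | h
  · exfalso
    rw [h, mul_one] at hm
    have e1 : B0 = B0 ⊔ B1 := eq_of_le_of_card_ge le_sup_left hm.le
    have hB1 : B1 ≤ B0 := by rw [e1]; exact le_sup_right
    have hc : Nat.card B0 = Nat.card B1 := by
      have h3 := h0.2.trans h1.2.symm
      exact Nat.eq_of_mul_eq_mul_right ht.pos h3
    exact hne (eq_of_le_of_card_ge hB1 hc.le).symm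
  · rw [h] at hm
    exact eq_of_le_of_card_ge hle (by rw [hm, h0.2])

theorem bg36_hyp_inf_W [Finite X] {t : ℕ} (ht : t.Prime) {V K B0 B1 : Subgroup X}
    (hCVK : V ⊓ centralizer (K : Set X) = ⊥) (h0 : BgHyp t K B0) (h1 : BgHyp t K B1)
    (hne : B0 ≠ B1) {v : X} (hv : v ∈ V) (hv0 : v ∈ centralizer (B0 : Set X))
    (hv1 : v ∈ centralizer (B1 : Set X)) : v = 1 := by
  have hsup := bg36_hyp_sup ht h0 h1 hne
  have h2 : B0 ⊔ B1 ≤ centralizer ({v} : Set X) := by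
    apply sup_le
    · intro b hb; rw [mem_centralizer_singleton_iff]; exact (mem_centralizer_iff.mp hv0 b hb)
    · intro b hb; rw [mem_centralizer_singleton_iff]; exact (mem_centralizer_iff.mp hv1 b hb)
  rw [hsup] at h2
  have h3 : v ∈ V ⊓ centralizer (K : Set X) := mem_inf.mpr ⟨hv, by
    rw [mem_centralizer_iff]; intro k hk
    exact mem_centralizer_singleton_iff.mp (h2 hk)⟩
  rw [hCVK] at h3
  exact mem_bot.mp h3

theorem bg36_W_le_comm [Finite X] {t : ℕ} (ht : t.Prime) {V K B0 B1 : Subgroup X}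
    (hVab : ∀ a ∈ V, ∀ b ∈ V, a * b = b * a) (hKab : ∀ a ∈ K, ∀ b ∈ K, a * b = b * a)
    (hKV : K ≤ normalizer (V : Set X)) (hcop : (Nat.card K).Coprime (Nat.card V))
    (hCVK : V ⊓ centralizer (K : Set X) = ⊥) (h0 : BgHyp t K B0) (h1 : BgHyp t K B1)
    (hne : B0 ≠ B1) :
    V ⊓ centralizer (B1 : Set X) ≤ ⁅V, B0⁆ := by
  intro v hv
  have hW1 : B0 ≤ normalizer ((V ⊓ centralizer (B1 : Set X) : Subgroup X) : Set X) := by
    intro b hb
    exact bg36_mem_normalizer_inf (hKV (h0.1 hb))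
      (bg36_mem_normalizer_centralizer (bg36_le_normalizer_of_comm hKab h1.1 (h0.1 hb)))
  have hcop' : (Nat.card B0).Coprime (Nat.card ↥(V ⊓ centralizer (B1 : Set X))) :=
    Nat.Coprime.coprime_dvd_left (card_dvd_of_le h0.1)
      (Nat.Coprime.coprime_dvd_right (card_dvd_of_le inf_le_left) hcop)
  obtain ⟨n, hn, c, hc, rfl⟩ := Cfsg.Agent.Helper35.exists_commutator_mul_fixed hW1 hcop'
    (Or.inr (Cfsg.Agent.Helper35.isSolvable_of_forall_comm
      (fun a ha b hb => hVab a ha.1 b hb.1))) hv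
  have hc1 : c = 1 := bg36_hyp_inf_W ht hCVK h0 h1 hne hc.1.1 hc.2 hc.1.2
  rw [hc1, mul_one]
  exact commutator_mono inf_le_left le_rfl hn

theorem bg36_W_inf_comm [Finite X] {V B0 : Subgroup X}
    (hVab : ∀ a ∈ V, ∀ b ∈ V, a * b = b * a) (hBV : B0 ≤ normalizer (V : Set X))
    (hcop : (Nat.card B0).Coprime (Nat.card V)) {v : X} (hv : v ∈ (⁅V, B0⁆ : Subgroup X))
    (hv0 : v ∈ centralizer (B0 : Set X)) : v = 1 := by
  have h1 := Cfsg.Agent.Helper35.commutator_inf_centralizer_eq_bot_of_comm hBV hcop hVab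
  have h2 : v ∈ (⁅V, B0⁆ : Subgroup X) ⊓ centralizer (B0 : Set X) := mem_inf.mpr ⟨hv, hv0⟩
  rw [h1] at h2
  exact mem_bot.mp h2

theorem bg36_hyp_conj {t : ℕ} {K B : Subgroup X} {g : X}
    (hg : g ∈ normalizer (K : Set X)) (hB : BgHyp t K B) : BgHyp t K (MulAut.conj g • B) := by
  refine ⟨?_, ?_⟩
  · have h1 := Cfsg.Agent.Helper35.conj_smul_le_conj_smul (g := g) hB.1
    rwa [Cfsg.Agent.Helper35.conj_smul_eq_self_of_mem_normalizer hg] at h1
  · rw [Cfsg.Agent.Helper35.card_conj_smul]; exact hB.2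

theorem bg36_W_conj {V B : Subgroup X} {g v : X} (hg : g ∈ normalizer (V : Set X))
    (hv : v ∈ V) (hvB : v ∈ centralizer (B : Set X)) :
    g * v * g⁻¹ ∈ V ⊓ centralizer ((MulAut.conj g • B : Subgroup X) : Set X) := by
  refine mem_inf.mpr ⟨(mem_normalizer_iff.mp hg v).mp hv, ?_⟩
  rw [mem_centralizer_iff]
  intro b hb
  have hb' : g⁻¹ * b * g ∈ B := Cfsg.Agent.Helper35.mem_conj_smul.mp hb
  have h3 := mem_centralizer_iff.mp hvB _ hb'
  calc b * (g * v * g⁻¹) = g * ((g⁻¹ * b * g) * v) * g⁻¹ := by group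
    _ = g * (v * (g⁻¹ * b * g)) * g⁻¹ := by rw [h3]
    _ = g * v * g⁻¹ * b := by group

theorem bg36_mem_normalizer_conj {B : Subgroup X} {g y : X} :
    y ∈ normalizer ((MulAut.conj g • B : Subgroup X) : Set X) ↔
      g⁻¹ * y * g ∈ normalizer (B : Set X) := by
  rw [Cfsg.Agent.Helper35.mem_normalizer_iff_conj_smul_eq,
    Cfsg.Agent.Helper35.mem_normalizer_iff_conj_smul_eq,
    Cfsg.Agent.Helper35.conj_smul_conj_smul]
  constructor
  · intro h
    have e : MulAut.conj (g⁻¹ * y * g) • B = MulAut.conj g⁻¹ • (MulAut.conj (y * g) • B) := by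
      rw [Cfsg.Agent.Helper35.conj_smul_conj_smul]; congr 2; group
    rw [e, h, Cfsg.Agent.Helper35.conj_smul_conj_smul]
    simp
  · intro h
    have e : MulAut.conj (y * g) • B = MulAut.conj g • (MulAut.conj (g⁻¹ * y * g) • B) := by
      rw [Cfsg.Agent.Helper35.conj_smul_conj_smul]; congr 2; group
    rw [e, h]

/-! ### The norm map `v ↦ (x * v) ^ r` -/

theorem bg36_norm_aux {Q : Subgroup X} {x v : X} {r : ℕ}
    (hQ : ∀ i, 0 < i → i < r → x ^ i * v * (x ^ i)⁻¹ ∈ Q) :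
    ∀ m, m < r → (x * v) ^ m * (x ^ m)⁻¹ ∈ Q := by
  intro m
  induction m with
  | zero => intro _; simp
  | succ m ih =>
    intro hm
    have h1 := ih (by omega)
    have h2 := hQ (m + 1) (by omega) hm
    have e : (x * v) ^ (m + 1) * (x ^ (m + 1))⁻¹ =
        ((x * v) ^ m * (x ^ m)⁻¹) * (x ^ (m + 1) * v * (x ^ (m + 1))⁻¹) := by
      rw [pow_succ (x * v), pow_succ x]
      generalize (x * v) ^ m = a
      generalize x ^ m = b
      group
    rw [e]; exact Q.mul_mem h1 h2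

theorem bg36_norm_eq {Q : Subgroup X} {x v : X} {r : ℕ} (hr : 0 < r) (hx : x ^ r = 1)
    (hQ : ∀ i, 0 < i → i < r → x ^ i * v * (x ^ i)⁻¹ ∈ Q) :
    ∃ q ∈ Q, (x * v) ^ r = q * v := by
  obtain ⟨m, rfl⟩ : ∃ m, r = m + 1 := ⟨r - 1, by omega⟩
  refine ⟨_, bg36_norm_aux hQ m (by omega), ?_⟩
  have e : (x * v) ^ (m + 1) = (x * v) ^ m * (x ^ m)⁻¹ * (x ^ (m + 1)) * v := by
    rw [pow_succ (x * v), pow_succ x]
    generalize (x * v) ^ m = a
    generalize x ^ m = b
    group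
  rw [e, hx, mul_one]

theorem bg36_norm_mem {V : Subgroup X} {x v : X} {r : ℕ} (hr : 0 < r) (hx : x ^ r = 1)
    (hVab : ∀ a ∈ V, ∀ b ∈ V, a * b = b * a) (hxV : x ∈ normalizer (V : Set X))
    (hv : v ∈ V) : (x * v) ^ r ∈ V ⊓ centralizer ({x} : Set X) := by
  obtain ⟨q, hq, he⟩ := bg36_norm_eq (Q := V) hr hx
    (fun i _ _ => (mem_normalizer_iff.mp (pow_mem hxV i) v).mp hv)
  have hn : (x * v) ^ r ∈ V := by rw [he]; exact V.mul_mem hq hv
  refine mem_inf.mpr ⟨hn, ?_⟩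
  rw [mem_centralizer_singleton_iff]
  have h1 : (x * v) ^ r * (x * v) = (x * v) * (x * v) ^ r := pow_mul_comm' (x * v) r
  have h2 : (x * v) ^ r * v = v * (x * v) ^ r := hVab _ hn v hv
  generalize (x * v) ^ r = n at h1 h2
  calc n * x = n * (x * v) * v⁻¹ := by group
    _ = x * v * n * v⁻¹ := by rw [h1]
    _ = x * (v * n) * v⁻¹ := by group
    _ = x * (n * v) * v⁻¹ := by rw [h2]
    _ = x * n := by group

theorem bg36_norm_moved [Finite X] {t r : ℕ} (ht : t.Prime) (hr : r.Prime)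
    {V K B0 : Subgroup X} {x v : X} (hxr : orderOf x = r)
    (hVab : ∀ a ∈ V, ∀ b ∈ V, a * b = b * a) (hKab : ∀ a ∈ K, ∀ b ∈ K, a * b = b * a)
    (hKV : K ≤ normalizer (V : Set X)) (hcop : (Nat.card K).Coprime (Nat.card V))
    (hCVK : V ⊓ centralizer (K : Set X) = ⊥)
    (hxV : x ∈ normalizer (V : Set X)) (hxK : x ∈ normalizer (K : Set X))
    (h0 : BgHyp t K B0) (hx0 : x ∉ normalizer (B0 : Set X)) (hv : v ∈ V)
    (hv0 : v ∈ centralizer (B0 : Set X)) :
    ∃ q ∈ (⁅V, B0⁆ : Subgroup X), (x * v) ^ r = q * v := by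
  apply bg36_norm_eq hr.pos (by rw [← hxr]; exact pow_orderOf_eq_one x)
  intro i hi hir
  have hne1 : x ^ i ≠ 1 := by
    intro h
    have h1 := orderOf_dvd_of_pow_eq_one h
    rw [hxr] at h1
    exact absurd (Nat.le_of_dvd hi h1) (by omega)
  have hxi : x ^ i ∉ normalizer (B0 : Set X) := fun h =>
    hx0 (bg36_mem_normalizer_of_pow hr hxr (pow_mem (mem_zpowers x) i) hne1 h)
  have hBi : BgHyp t K (MulAut.conj (x ^ i) • B0) := bg36_hyp_conj (pow_mem hxK i) h0
  have hne : B0 ≠ MulAut.conj (x ^ i) • B0 := fun h =>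
    hxi (Cfsg.Agent.Helper35.mem_normalizer_iff_conj_smul_eq.mpr h.symm)
  exact bg36_W_le_comm ht hVab hKab hKV hcop hCVK h0 hBi hne
    (bg36_W_conj (pow_mem hxV i) hv hv0)

theorem bg36_card_W_le [Finite X] {t r : ℕ} (ht : t.Prime) (hr : r.Prime)
    {V K B0 : Subgroup X} {x : X} (hxr : orderOf x = r)
    (hVab : ∀ a ∈ V, ∀ b ∈ V, a * b = b * a) (hKab : ∀ a ∈ K, ∀ b ∈ K, a * b = b * a)
    (hKV : K ≤ normalizer (V : Set X)) (hcop : (Nat.card K).Coprime (Nat.card V))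
    (hCVK : V ⊓ centralizer (K : Set X) = ⊥)
    (hxV : x ∈ normalizer (V : Set X)) (hxK : x ∈ normalizer (K : Set X))
    (h0 : BgHyp t K B0) (hx0 : x ∉ normalizer (B0 : Set X)) :
    Nat.card ↥(V ⊓ centralizer (B0 : Set X)) ≤ Nat.card ↥(V ⊓ centralizer ({x} : Set X)) := by
  have hx : x ^ r = 1 := by rw [← hxr]; exact pow_orderOf_eq_one x
  have hBV : B0 ≤ normalizer (V : Set X) := h0.1.trans hKV
  have hcopB : (Nat.card B0).Coprime (Nat.card V) :=
    Nat.Coprime.coprime_dvd_left (card_dvd_of_le h0.1) hcop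
  let f : ↥(V ⊓ centralizer (B0 : Set X)) → ↥(V ⊓ centralizer ({x} : Set X)) :=
    fun v => ⟨(x * v.1) ^ r, bg36_norm_mem hr.pos hx hVab hxV v.2.1⟩
  apply Nat.card_le_card_of_injective f
  intro v w hvw
  have hvw' : (x * v.1) ^ r = (x * w.1) ^ r := congrArg Subtype.val hvw
  obtain ⟨q, hq, he⟩ := bg36_norm_moved ht hr hxr hVab hKab hKV hcop hCVK hxV hxK h0 hx0
    v.2.1 v.2.2
  obtain ⟨q', hq', he'⟩ := bg36_norm_moved ht hr hxr hVab hKab hKV hcop hCVK hxV hxK h0 hx0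
    w.2.1 w.2.2
  rw [he, he'] at hvw'
  have h1 : v.1 * w.1⁻¹ = q⁻¹ * q' := by
    have e : v.1 = q⁻¹ * (q' * w.1) := by rw [← hvw']; group
    rw [e]; group
  have h2 : v.1 * w.1⁻¹ = 1 := bg36_W_inf_comm hVab hBV hcopB
    (by rw [h1]; exact mul_mem (inv_mem hq) hq') (mul_mem v.2.2 (inv_mem w.2.2))
  exact Subtype.ext (mul_inv_eq_one.mp h2)

end Cfsg.Agent.Helper55
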