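/-
helper55: the abelian final configuration of Bender–Glauberman Theorem 3.6 (for S1444).
-/
import Cfsg.Agent.Helper55.BG36Ab2
import Cfsg.Agent.S0100

set_option autoImplicit false

namespace Cfsg.Agent.Helper55

open Subgroup
open scoped Pointwise commutatorElement

universe u

variable {X : Type u} [Group X]

theorem bg36_eq_one_of_sq [Finite X] (hodd : Odd (Nat.card X)) {s : X} (hs : s ^ 2 = 1) :
    s = 1 := by
  have h1 : orderOf s ∣ 2 := orderOf_dvd_of_pow_eq_one hs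
  have h2 : orderOf s ∣ Nat.card X := orderOf_dvd_natCard s
  rcases (Nat.dvd_prime Nat.prime_two).mp h1 with h | h
  · exact orderOf_eq_one_iff.mp h
  · exfalso
    rw [h] at h2
    exact (Nat.not_even_iff_odd.mpr hodd) (even_iff_two_dvd.mpr h2)

/-- The elements of exponent `t` of an abelian subgroup. -/
def bg36Omega (K : Subgroup X) (t : ℕ) (hKab : ∀ a ∈ K, ∀ b ∈ K, a * b = b * a) :
    Subgroup X where
  carrier := {a | a ∈ K ∧ a ^ t = 1}
  mul_mem' := by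
    rintro a b ⟨ha, ha'⟩ ⟨hb, hb'⟩
    refine ⟨K.mul_mem ha hb, ?_⟩
    have hc : Commute a b := hKab a ha b hb
    rw [hc.mul_pow, ha', hb', one_mul]
  one_mem' := ⟨K.one_mem, one_pow _⟩
  inv_mem' := by
    rintro a ⟨ha, ha'⟩
    exact ⟨K.inv_mem ha, by rw [inv_pow, ha', inv_one]⟩

theorem bg36_mem_omega {K : Subgroup X} {t : ℕ} {hKab : ∀ a ∈ K, ∀ b ∈ K, a * b = b * a}
    {a : X} : a ∈ bg36Omega K t hKab ↔ a ∈ K ∧ a ^ t = 1 := Iff.rfl

theorem bg36_mem_normalizer_omega {K : Subgroup X} {t : ℕ}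
    (hKab : ∀ a ∈ K, ∀ b ∈ K, a * b = b * a) {g : X} (hg : g ∈ normalizer (K : Set X)) :
    g ∈ normalizer ((bg36Omega K t hKab : Subgroup X) : Set X) := by
  rw [mem_normalizer_iff]
  intro a
  have hK := mem_normalizer_iff.mp hg a
  rw [bg36_mem_omega, bg36_mem_omega]
  constructor
  · rintro ⟨ha, ha'⟩
    exact ⟨hK.mp ha, by rw [conj_pow, ha']; group⟩
  · rintro ⟨ha, ha'⟩
    refine ⟨hK.mpr ha, ?_⟩
    rw [conj_pow] at ha'
    have e : a ^ t = g⁻¹ * (g * a ^ t * g⁻¹) * g := by group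
    rw [e, ha']; group

/-- The hypotheses of `bg36_abelian`, bundled. -/
structure BgAb [Finite X] (p t r : ℕ) (V K S : Subgroup X) (x : X) : Prop where
  hodd : Odd (Nat.card X)
  hp : p.Prime
  ht : t.Prime
  hr : r.Prime
  hpt : p ≠ t
  hpr : p ≠ r
  htr : t ≠ r
  hVab : ∀ a ∈ V, ∀ b ∈ V, a * b = b * a
  hVp : ∀ a ∈ V, a ^ p = 1
  hKab : ∀ a ∈ K, ∀ b ∈ K, a * b = b * a
  hKt : IsPGroup t K
  hSp : IsPGroup p S
  hS1 : S ≠ ⊥
  hKV : K ≤ normalizer (V : Set X)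
  hSV : S ≤ normalizer (V : Set X)
  hxV : x ∈ normalizer (V : Set X)
  hSK : S ≤ normalizer (K : Set X)
  hxK : x ∈ normalizer (K : Set X)
  hxS : x ∈ normalizer (S : Set X)
  hxr : orderOf x = r
  hCVK : V ⊓ centralizer (K : Set X) = ⊥
  hSfaith : S ⊓ centralizer (V : Set X) = ⊥
  hKfaith : K ⊓ centralizer (V : Set X) = ⊥
  hCSx : S ⊓ centralizer ({x} : Set X) = ⊥
  hSirr : ∀ S₀ : Subgroup X, S₀ ≤ S → x ∈ normalizer (S₀ : Set X) → S₀ = ⊥ ∨ S₀ = S
  hd : ∀ K₀ : Subgroup X, K₀ ≤ K → K₀ ≠ K → S ≤ normalizer (K₀ : Set X) →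
    x ∈ normalizer (K₀ : Set X) → K₀ ≤ centralizer (S : Set X)
  hSK' : ¬ S ≤ centralizer (K : Set X)
  hCVx : IsCyclic ↥(V ⊓ centralizer ({x} : Set X))
  hCKx : IsCyclic ↥(K ⊓ centralizer ({x} : Set X))

/-- The hyperplane `[K, x]`. -/
def bgK2 (K : Subgroup X) (x : X) : Subgroup X := ⁅K, zpowers x⁆

namespace BgAb

variable [Finite X] {p t r : ℕ} {V K S : Subgroup X} {x : X}

theorem xpow (h : BgAb p t r V K S x) : x ^ r = 1 := by
  rw [← h.hxr]; exact pow_orderOf_eq_one x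

theorem cardS' (h : BgAb p t r V K S x) : ∃ a, Nat.card S = p ^ a := by
  have : Fact p.Prime := ⟨h.hp⟩
  exact IsPGroup.exists_card_eq h.hSp

theorem cardK' (h : BgAb p t r V K S x) : ∃ b, Nat.card K = t ^ b := by
  have : Fact t.Prime := ⟨h.ht⟩
  exact IsPGroup.exists_card_eq h.hKt

theorem cardV' (h : BgAb p t r V K S x) : ∃ c, Nat.card V = p ^ c := by
  have : Fact p.Prime := ⟨h.hp⟩
  exact IsPGroup.exists_card_eq (bg36_isPGroup_of_pow h.hVp)

theorem copSK (h : BgAb p t r V K S x) : (Nat.card S).Coprime (Nat.card K) := by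
  obtain ⟨a, ha⟩ := h.cardS'
  obtain ⟨b, hb⟩ := h.cardK'
  rw [ha, hb]; exact Nat.Coprime.pow _ _ ((Nat.coprime_primes h.hp h.ht).mpr h.hpt)

theorem copKV (h : BgAb p t r V K S x) : (Nat.card K).Coprime (Nat.card V) := by
  obtain ⟨a, ha⟩ := h.cardV'
  obtain ⟨b, hb⟩ := h.cardK'
  rw [ha, hb]; exact Nat.Coprime.pow _ _ ((Nat.coprime_primes h.ht h.hp).mpr (Ne.symm h.hpt))

theorem copKr (h : BgAb p t r V K S x) : (Nat.card K).Coprime r := by
  obtain ⟨b, hb⟩ := h.cardK'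
  rw [hb]; exact Nat.Coprime.pow_left _ ((Nat.coprime_primes h.ht h.hr).mpr h.htr)

theorem copVr (h : BgAb p t r V K S x) : (Nat.card V).Coprime r := by
  obtain ⟨b, hb⟩ := h.cardV'
  rw [hb]; exact Nat.Coprime.pow_left _ ((Nat.coprime_primes h.hp h.hr).mpr h.hpr)

theorem copEK (h : BgAb p t r V K S x) : (Nat.card (zpowers x)).Coprime (Nat.card K) := by
  rw [Nat.card_zpowers, h.hxr]; exact h.copKr.symm

theorem Kne (h : BgAb p t r V K S x) : K ≠ ⊥ := by
  intro hK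
  apply h.hSK'
  rw [hK]
  intro s _
  rw [mem_centralizer_iff]
  intro k hk
  have hk1 : k = 1 := mem_bot.mp hk
  rw [hk1]; simp

theorem Vne (h : BgAb p t r V K S x) : V ≠ ⊥ := by
  intro hV
  apply h.hS1
  rw [eq_bot_iff, ← h.hSfaith]
  refine le_inf le_rfl ?_
  rw [hV]
  intro s _
  rw [mem_centralizer_iff]
  intro k hk
  have hk1 : k = 1 := mem_bot.mp hk
  rw [hk1]; simp

theorem comm_eq (h : BgAb p t r V K S x) : (⁅K, S⁆ : Subgroup X) = K := by
  by_contra hne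
  have hle : (⁅K, S⁆ : Subgroup X) ≤ K :=
    Cfsg.Agent.Helper35.commutator_le_of_le_normalizer h.hSK
  have hSL : S ≤ normalizer ((⁅K, S⁆ : Subgroup X) : Set X) :=
    Cfsg.Agent.Helper35.le_normalizer_commutator h.hSK
  have hxL : x ∈ normalizer ((⁅K, S⁆ : Subgroup X) : Set X) :=
    Cfsg.Agent.Helper35.le_normalizer_commutator' (A := zpowers x) (zpowers_le.mpr h.hxK)
      (zpowers_le.mpr h.hxS) (mem_zpowers x)
  have hLS := h.hd _ hle hne hSL hxL
  have h1 : (⁅⁅K, S⁆, S⁆ : Subgroup X) = ⊥ := commutator_eq_bot_iff_le_centralizer.mpr hLS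
  have h2 := Cfsg.Agent.Helper35.commutator_commutator_eq_of_coprime h.hSK h.copSK
    (Or.inr (Cfsg.Agent.Helper35.isSolvable_of_forall_comm h.hKab))
  rw [h1] at h2
  have h3 : K ≤ centralizer (S : Set X) := commutator_eq_bot_iff_le_centralizer.mp h2.symm
  exact h.hSK' (le_centralizer_iff.mp h3)

theorem CKS (h : BgAb p t r V K S x) : K ⊓ centralizer (S : Set X) = ⊥ := by
  have h1 := Cfsg.Agent.Helper35.commutator_inf_centralizer_eq_bot_of_comm h.hSK h.copSK h.hKab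
  rwa [h.comm_eq] at h1

theorem Kexp (h : BgAb p t r V K S x) : ∀ a ∈ K, a ^ t = 1 := by
  have hΩle : bg36Omega K t h.hKab ≤ K := fun a ha => ha.1
  have hΩne : bg36Omega K t h.hKab ≠ ⊥ := by
    have : Fact t.Prime := ⟨h.ht⟩
    obtain ⟨b, hb⟩ := h.cardK'
    have hb0 : b ≠ 0 := by
      rintro rfl
      rw [pow_zero, card_eq_one] at hb
      exact h.Kne hb
    have hdvd : t ∣ Nat.card K := by rw [hb]; exact dvd_pow_self t hb0
    obtain ⟨y, hy⟩ := exists_prime_orderOf_dvd_card' t hdvd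
    intro hbot
    have hmem : (y : X) ∈ bg36Omega K t h.hKab := by
      rw [bg36_mem_omega]
      refine ⟨y.2, ?_⟩
      have h1 := pow_orderOf_eq_one y
      rw [hy] at h1
      have h2 := congrArg Subtype.val h1
      simpa using h2
    rw [hbot] at hmem
    have hy1 : y = 1 := Subtype.ext (mem_bot.mp hmem)
    rw [hy1, orderOf_one] at hy
    exact h.ht.ne_one hy.symm
  by_contra hcon
  have hΩK : bg36Omega K t h.hKab ≠ K := by
    intro he
    apply hcon
    intro a ha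
    have h1 : a ∈ bg36Omega K t h.hKab := by rw [he]; exact ha
    exact h1.2
  have hΩS : bg36Omega K t h.hKab ≤ centralizer (S : Set X) :=
    h.hd _ hΩle hΩK (fun s hs => bg36_mem_normalizer_omega h.hKab (h.hSK hs))
      (bg36_mem_normalizer_omega h.hKab h.hxK)
  apply hΩne
  rw [eq_bot_iff, ← h.CKS]
  exact le_inf hΩle hΩS

theorem cardCK (h : BgAb p t r V K S x) :
    Nat.card ↥(K ⊓ centralizer ({x} : Set X)) = t ∧ Nat.card K = t ^ r := by
  have h1 := bg36_frob_card h.hr h.hxr h.hxS h.hCSx h.hSK h.hxK h.hKab h.copSK.symm h.copKr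
    h.CKS
  have h2 : Nat.card ↥(K ⊓ centralizer ({x} : Set X)) ∣ t :=
    bg36_card_dvd_of_cyclic h.hCKx (fun a ha => h.Kexp a ha.1)
  rcases (Nat.dvd_prime h.ht).mp h2 with h3 | h3
  · exfalso
    rw [h3, one_pow, card_eq_one] at h1
    exact h.Kne h1
  · exact ⟨h3, by rw [h1, h3]⟩

theorem K2le (h : BgAb p t r V K S x) : bgK2 K x ≤ K :=
  Cfsg.Agent.Helper35.commutator_le_of_le_normalizer (zpowers_le.mpr h.hxK)

theorem xK2 (h : BgAb p t r V K S x) : x ∈ normalizer ((bgK2 K x : Subgroup X) : Set X) :=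
  Cfsg.Agent.Helper35.le_normalizer_commutator (zpowers_le.mpr h.hxK) (mem_zpowers x)

theorem K2fpf (h : BgAb p t r V K S x) : bgK2 K x ⊓ centralizer ({x} : Set X) = ⊥ := by
  have h1 := Cfsg.Agent.Helper35.commutator_inf_centralizer_eq_bot_of_comm
    (zpowers_le.mpr h.hxK) h.copEK h.hKab
  rwa [bg36_centralizer_zpowers] at h1

theorem hypK2 (h : BgAb p t r V K S x) : BgHyp t K (bgK2 K x) := by
  refine ⟨h.K2le, ?_⟩
  have hCle : K ⊓ centralizer ({x} : Set X) ≤ normalizer ((bgK2 K x : Subgroup X) : Set X) :=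
    inf_le_left.trans (bg36_le_normalizer_of_comm h.hKab h.K2le)
  have hinf : bgK2 K x ⊓ (K ⊓ centralizer ({x} : Set X)) = ⊥ := by
    rw [eq_bot_iff, ← h.K2fpf]
    exact inf_le_inf_left _ inf_le_right
  have hcard := Cfsg.Agent.Helper35.card_sup_of_le_normalizer hCle hinf
  have hsup : bgK2 K x ⊔ (K ⊓ centralizer ({x} : Set X)) = K := by
    apply le_antisymm (sup_le h.K2le inf_le_left)
    intro k hk
    obtain ⟨n, hn, c, hc, rfl⟩ := Cfsg.Agent.Helper35.exists_commutator_mul_fixed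
      (zpowers_le.mpr h.hxK) h.copEK
      (Or.inr (Cfsg.Agent.Helper35.isSolvable_of_forall_comm h.hKab)) hk
    rw [bg36_centralizer_zpowers] at hc
    exact mul_mem (mem_sup_left hn) (mem_sup_right hc)
  rw [hsup, h.cardCK.1] at hcard
  exact hcard.symm

theorem SNK2 (h : BgAb p t r V K S x) :
    S ⊓ normalizer ((bgK2 K x : Subgroup X) : Set X) = ⊥ := by
  have hx : x ∈ normalizer
      ((S ⊓ normalizer ((bgK2 K x : Subgroup X) : Set X) : Subgroup X) : Set X) :=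
    bg36_mem_normalizer_inf h.hxS (le_normalizer h.xK2)
  rcases h.hSirr _ inf_le_left hx with h1 | h1
  · exact h1
  · exfalso
    have hSN : S ≤ normalizer ((bgK2 K x : Subgroup X) : Set X) := by
      intro s hs
      have h2 : s ∈ S ⊓ normalizer ((bgK2 K x : Subgroup X) : Set X) := by rw [h1]; exact hs
      exact h2.2
    have hne : bgK2 K x ≠ K := by
      intro he
      have h2 := h.hypK2.2
      rw [he] at h2
      have hpos : 0 < Nat.card K := Nat.card_pos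
      have h3 : t = 1 := Nat.eq_of_mul_eq_mul_left hpos (h2.trans (mul_one _).symm)
      exact h.ht.ne_one h3
    have h2 := h.hd _ h.K2le hne hSN h.xK2
    have h3 : bgK2 K x = ⊥ := by
      rw [eq_bot_iff, ← h.CKS]; exact le_inf h.K2le h2
    have h4 := h.hypK2.2
    rw [h3, card_bot, one_mul, h.cardCK.2] at h4
    have h5 : r = 1 :=
      (Nat.pow_right_injective h.ht.two_le (show t ^ 1 = t ^ r by rw [pow_one]; exact h4)).symm
    exact h.hr.ne_one h5

theorem P5 (h : BgAb p t r V K S x) {B0 B' : Subgroup X} (h0 : BgHyp t K B0)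
    (h' : BgHyp t K B') (hx0 : x ∉ normalizer (B0 : Set X))
    (hx' : x ∉ normalizer (B' : Set X))
    (hW0 : V ⊓ centralizer (B0 : Set X) ≠ ⊥) (hW' : V ⊓ centralizer (B' : Set X) ≠ ⊥) :
    ∃ e ∈ zpowers x, B' = MulAut.conj e • B0 := by
  by_contra hcon
  push Not at hcon
  obtain ⟨v0, hv0, hv01⟩ : ∃ v ∈ V ⊓ centralizer (B0 : Set X), v ≠ 1 := by
    by_contra hc
    push Not at hc
    exact hW0 ((eq_bot_iff_forall _).mpr hc)
  obtain ⟨v', hv', hv'1⟩ : ∃ v ∈ V ⊓ centralizer (B' : Set X), v ≠ 1 := by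
    by_contra hc
    push Not at hc
    exact hW' ((eq_bot_iff_forall _).mpr hc)
  have hBV' : B' ≤ normalizer (V : Set X) := h'.1.trans h.hKV
  have hcopB' : (Nat.card B').Coprime (Nat.card V) :=
    Nat.Coprime.coprime_dvd_left (card_dvd_of_le h'.1) h.copKV
  have hcopB0 : (Nat.card B0).Coprime (Nat.card V) :=
    Nat.Coprime.coprime_dvd_left (card_dvd_of_le h0.1) h.copKV
  have hconj : ∀ i : ℕ, x ^ i * v0 * (x ^ i)⁻¹ ∈ (⁅V, B'⁆ : Subgroup X) := by
    intro i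
    have hBi : BgHyp t K (MulAut.conj (x ^ i) • B0) := bg36_hyp_conj (pow_mem h.hxK i) h0
    have hne : B' ≠ MulAut.conj (x ^ i) • B0 := hcon _ (pow_mem (mem_zpowers x) i)
    exact bg36_W_le_comm h.ht h.hVab h.hKab h.hKV h.copKV h.hCVK h' hBi hne
      (bg36_W_conj (pow_mem h.hxV i) hv0.1 hv0.2)
  obtain ⟨q, hq, hq'⟩ := bg36_norm_eq (Q := (⁅V, B'⁆ : Subgroup X)) h.hr.pos h.xpow
    (fun i _ _ => hconj i)
  have hv0Q : v0 ∈ (⁅V, B'⁆ : Subgroup X) := by simpa using hconj 0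
  have hcQ : (x * v0) ^ r ∈ (⁅V, B'⁆ : Subgroup X) := by rw [hq']; exact mul_mem hq hv0Q
  have hcD := bg36_norm_mem h.hr.pos h.xpow h.hVab h.hxV hv0.1
  obtain ⟨q0, hq0, hq0'⟩ := bg36_norm_moved h.ht h.hr h.hxr h.hVab h.hKab h.hKV h.copKV
    h.hCVK h.hxV h.hxK h0 hx0 hv0.1 hv0.2
  have hc1 : (x * v0) ^ r ≠ 1 := by
    intro hc
    rw [hc] at hq0'
    have hv0c : v0 ∈ (⁅V, B0⁆ : Subgroup X) := by
      have e : v0 = q0⁻¹ * (q0 * v0) := by group
      rw [e, ← hq0', mul_one]; exact inv_mem hq0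
    exact hv01 (bg36_W_inf_comm h.hVab (h0.1.trans h.hKV) hcopB0 hv0c hv0.2)
  have hDQ : V ⊓ centralizer ({x} : Set X) ≤ (⁅V, B'⁆ : Subgroup X) :=
    bg36_le_of_card_dvd_prime h.hp
      (bg36_card_dvd_of_cyclic h.hCVx (fun a ha => h.hVp a ha.1)) hcD hcQ hc1
  obtain ⟨q1, hq1, hq1'⟩ := bg36_norm_moved h.ht h.hr h.hxr h.hVab h.hKab h.hKV h.copKV
    h.hCVK h.hxV h.hxK h' hx' hv'.1 hv'.2
  have hn' : (x * v') ^ r ∈ (⁅V, B'⁆ : Subgroup X) :=
    hDQ (bg36_norm_mem h.hr.pos h.xpow h.hVab h.hxV hv'.1)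
  have hv'Q : v' ∈ (⁅V, B'⁆ : Subgroup X) := by
    have e : v' = q1⁻¹ * (x * v') ^ r := by rw [hq1']; group
    rw [e]; exact mul_mem (inv_mem hq1) hn'
  exact hv'1 (bg36_W_inf_comm h.hVab hBV' hcopB' hv'Q hv'.2)

theorem WK2 (h : BgAb p t r V K S x) :
    V ⊓ centralizer ((bgK2 K x : Subgroup X) : Set X) = ⊥ := by
  by_contra hW
  obtain ⟨s, hs, hs1⟩ : ∃ s ∈ S, s ≠ 1 := by
    by_contra hc
    push Not at hc
    exact h.hS1 ((eq_bot_iff_forall _).mpr hc)
  have key : ∀ s ∈ S, s ≠ 1 → BgHyp t K (MulAut.conj s • bgK2 K x) ∧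
      x ∉ normalizer ((MulAut.conj s • bgK2 K x : Subgroup X) : Set X) ∧
      V ⊓ centralizer ((MulAut.conj s • bgK2 K x : Subgroup X) : Set X) ≠ ⊥ := by
    intro s hs hs1
    refine ⟨bg36_hyp_conj (h.hSK hs) h.hypK2, ?_, ?_⟩
    · intro hx
      rw [bg36_mem_normalizer_conj] at hx
      have h1 : x⁻¹ * (s⁻¹ * x * s) ∈ normalizer ((bgK2 K x : Subgroup X) : Set X) :=
        mul_mem (inv_mem h.xK2) hx
      have h2 : x⁻¹ * (s⁻¹ * x * s) ∈ S := by
        have h3 : x⁻¹ * s⁻¹ * x⁻¹⁻¹ ∈ S :=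
          (mem_normalizer_iff.mp (inv_mem h.hxS) s⁻¹).mp (inv_mem hs)
        have e : x⁻¹ * (s⁻¹ * x * s) = (x⁻¹ * s⁻¹ * x⁻¹⁻¹) * s := by group
        rw [e]; exact mul_mem h3 hs
      have h4 : x⁻¹ * (s⁻¹ * x * s) ∈ S ⊓ normalizer ((bgK2 K x : Subgroup X) : Set X) :=
        mem_inf.mpr ⟨h2, h1⟩
      rw [h.SNK2] at h4
      have h5 : x⁻¹ * (s⁻¹ * x * s) = 1 := mem_bot.mp h4
      have h6 : s * x = x * s := by
        have e : s * x = s * x * (x⁻¹ * (s⁻¹ * x * s)) := by rw [h5, mul_one]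
        rw [e]; group
      have h7 : s ∈ S ⊓ centralizer ({x} : Set X) :=
        mem_inf.mpr ⟨hs, by rw [mem_centralizer_singleton_iff]; exact h6⟩
      rw [h.hCSx] at h7
      exact hs1 (mem_bot.mp h7)
    · obtain ⟨v, hv, hv1⟩ :
          ∃ v ∈ V ⊓ centralizer ((bgK2 K x : Subgroup X) : Set X), v ≠ 1 := by
        by_contra hc
        push Not at hc
        exact hW ((eq_bot_iff_forall _).mpr hc)
      intro hbot
      have h1 := bg36_W_conj (g := s) (h.hSV hs) hv.1 hv.2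
      rw [hbot] at h1
      have h2 : s * v * s⁻¹ = 1 := mem_bot.mp h1
      apply hv1
      have e : v = s⁻¹ * (s * v * s⁻¹) * s := by group
      rw [e, h2]; group
  obtain ⟨hyp1, hx1, hW1⟩ := key s hs hs1
  obtain ⟨hyp2, hx2, hW2⟩ := key s⁻¹ (inv_mem hs) (by simpa using hs1)
  obtain ⟨e, he, heq⟩ := h.P5 hyp1 hyp2 hx1 hx2 hW1 hW2
  rw [Cfsg.Agent.Helper35.conj_smul_conj_smul] at heq
  have h1 : s * (e * s) ∈ normalizer ((bgK2 K x : Subgroup X) : Set X) := by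
    rw [Cfsg.Agent.Helper35.mem_normalizer_iff_conj_smul_eq,
      ← Cfsg.Agent.Helper35.conj_smul_conj_smul, ← heq,
      Cfsg.Agent.Helper35.conj_smul_conj_smul]
    simp
  have heN : e ∈ normalizer ((bgK2 K x : Subgroup X) : Set X) := (zpowers_le.mpr h.xK2) he
  have heS : e ∈ normalizer (S : Set X) := (zpowers_le.mpr h.hxS) he
  have h2 : e⁻¹ * s * e * s ∈ S ⊓ normalizer ((bgK2 K x : Subgroup X) : Set X) := by
    refine mem_inf.mpr ⟨?_, ?_⟩
    · have h3 : e⁻¹ * s * e⁻¹⁻¹ ∈ S := (mem_normalizer_iff.mp (inv_mem heS) s).mp hs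
      rw [inv_inv] at h3
      exact mul_mem h3 hs
    · have e' : e⁻¹ * s * e * s = e⁻¹ * (s * (e * s)) := by group
      rw [e']; exact mul_mem (inv_mem heN) h1
  rw [h.SNK2] at h2
  have h3 : e⁻¹ * s * e * s = 1 := mem_bot.mp h2
  by_cases he1 : e = 1
  · rw [he1] at h3
    have hs2 : s ^ 2 = 1 := by rw [pow_two]; simpa using h3
    exact hs1 (bg36_eq_one_of_sq h.hodd hs2)
  · have h3a : s * e = e * s⁻¹ := by
      calc s * e = e * (e⁻¹ * s * e * s) * s⁻¹ := by group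
        _ = e * s⁻¹ := by rw [h3, mul_one]
    have h3b : e * s = s⁻¹ * e := by
      calc e * s = s⁻¹ * e * (e⁻¹ * s * e * s) := by group
        _ = s⁻¹ * e := by rw [h3, mul_one]
    have hc : (e * e) * s = s * (e * e) := by
      calc e * e * s = e * (e * s) := by group
        _ = e * (s⁻¹ * e) := by rw [h3b]
        _ = (e * s⁻¹) * e := by group
        _ = (s * e) * e := by rw [← h3a]
        _ = s * (e * e) := by group
    have he2 : e * e ≠ 1 := by
      intro h4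
      have h5 : e ^ 2 = 1 := by rw [pow_two]; exact h4
      exact he1 (bg36_eq_one_of_sq h.hodd h5)
    have hxs := bg36_comm_of_comm_pow h.hr h.hxr (mul_mem he he) he2 hc
    have h7 : s ∈ S ⊓ centralizer ({x} : Set X) :=
      mem_inf.mpr ⟨hs, by rw [mem_centralizer_singleton_iff]; exact hxs.symm⟩
    rw [h.hCSx] at h7
    exact hs1 (mem_bot.mp h7)

theorem cardD (h : BgAb p t r V K S x) :
    Nat.card ↥(V ⊓ centralizer ({x} : Set X)) = p ∧ Nat.card V = p ^ r := by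
  have hcop : (Nat.card V).Coprime (Nat.card ↥(bgK2 K x)) :=
    Nat.Coprime.coprime_dvd_right (card_dvd_of_le h.K2le) h.copKV.symm
  have h1 := bg36_frob_card h.hr h.hxr h.xK2 h.K2fpf (h.K2le.trans h.hKV) h.hxV h.hVab hcop
    h.copVr h.WK2
  have h2 : Nat.card ↥(V ⊓ centralizer ({x} : Set X)) ∣ p :=
    bg36_card_dvd_of_cyclic h.hCVx (fun a ha => h.hVp a ha.1)
  rcases (Nat.dvd_prime h.hp).mp h2 with h3 | h3
  · exfalso
    rw [h3, one_pow, card_eq_one] at h1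
    exact h.Vne h1
  · exact ⟨h3, by rw [h1, h3]⟩

theorem C1 (h : BgAb p t r V K S x) {K1 : Subgroup X} (h1 : BgHyp t K K1)
    (hx1 : x ∈ normalizer (K1 : Set X)) : V ⊓ centralizer (K1 : Set X) = ⊥ := by
  by_cases heq : K1 = bgK2 K x
  · rw [heq]; exact h.WK2
  have hU : bgK2 K x ≤ normalizer ((V ⊓ centralizer (K1 : Set X) : Subgroup X) : Set X) := by
    intro b hb
    exact bg36_mem_normalizer_inf (h.hKV (h.K2le hb))
      (bg36_mem_normalizer_centralizer (bg36_le_normalizer_of_comm h.hKab h1.1 (h.K2le hb)))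
  have hxH : x ∈ normalizer ((V ⊓ centralizer (K1 : Set X) : Subgroup X) : Set X) :=
    bg36_mem_normalizer_inf h.hxV (bg36_mem_normalizer_centralizer hx1)
  have hHab : ∀ a ∈ V ⊓ centralizer (K1 : Set X), ∀ b ∈ V ⊓ centralizer (K1 : Set X),
      a * b = b * a := fun a ha b hb => h.hVab a ha.1 b hb.1
  have hcopU : (Nat.card ↥(V ⊓ centralizer (K1 : Set X))).Coprime (Nat.card ↥(bgK2 K x)) :=
    Nat.Coprime.coprime_dvd_left (card_dvd_of_le inf_le_left)
      (Nat.Coprime.coprime_dvd_right (card_dvd_of_le h.K2le) h.copKV.symm)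
  have hcopr : (Nat.card ↥(V ⊓ centralizer (K1 : Set X))).Coprime r :=
    Nat.Coprime.coprime_dvd_left (card_dvd_of_le inf_le_left) h.copVr
  have hHU : (V ⊓ centralizer (K1 : Set X)) ⊓
      centralizer ((bgK2 K x : Subgroup X) : Set X) = ⊥ := by
    rw [eq_bot_iff]
    intro v hv
    rw [mem_bot]
    exact bg36_hyp_inf_W h.ht h.hCVK h1 h.hypK2 heq hv.1.1 hv.1.2 hv.2
  have hcard := bg36_frob_card h.hr h.hxr h.xK2 h.K2fpf hU hxH hHab hcopU hcopr hHU
  have hdvd : Nat.card ↥((V ⊓ centralizer (K1 : Set X)) ⊓ centralizer ({x} : Set X)) ∣ p := by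
    have h2 : (V ⊓ centralizer (K1 : Set X)) ⊓ centralizer ({x} : Set X) ≤
        V ⊓ centralizer ({x} : Set X) := inf_le_inf_right _ inf_le_left
    have h3 := card_dvd_of_le h2
    rwa [h.cardD.1] at h3
  rcases (Nat.dvd_prime h.hp).mp hdvd with h3 | h3
  · rw [h3, one_pow, card_eq_one] at hcard
    exact hcard
  · exfalso
    rw [h3, ← h.cardD.2] at hcard
    have hWV : V ⊓ centralizer (K1 : Set X) = V := eq_of_le_of_card_ge inf_le_left hcard.ge
    have hV : V ≤ centralizer (K1 : Set X) := by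
      intro v hv
      have h4 : v ∈ V ⊓ centralizer (K1 : Set X) := by rw [hWV]; exact hv
      exact h4.2
    have hK1 : K1 ≤ centralizer (V : Set X) := le_centralizer_iff.mp hV
    have hK1bot : K1 = ⊥ := by
      rw [eq_bot_iff, ← h.hKfaith]; exact le_inf h1.1 hK1
    have h4 := h1.2
    rw [hK1bot, card_bot, one_mul, h.cardCK.2] at h4
    have h5 : r = 1 :=
      (Nat.pow_right_injective h.ht.two_le (show t ^ 1 = t ^ r by rw [pow_one]; exact h4)).symm
    exact h.hr.ne_one h5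

theorem P6 (h : BgAb p t r V K S x) {B0 : Subgroup X} (h0 : BgHyp t K B0)
    (hW0 : V ⊓ centralizer (B0 : Set X) ≠ ⊥) : S ≤ normalizer (B0 : Set X) := by
  have hconjW : ∀ g : X, g ∈ normalizer (V : Set X) →
      V ⊓ centralizer ((MulAut.conj g • B0 : Subgroup X) : Set X) ≠ ⊥ := by
    intro g hg hbot
    obtain ⟨v, hv, hv1⟩ : ∃ v ∈ V ⊓ centralizer (B0 : Set X), v ≠ 1 := by
      by_contra hc
      push Not at hc
      exact hW0 ((eq_bot_iff_forall _).mpr hc)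
    have h1 := bg36_W_conj (g := g) hg hv.1 hv.2
    rw [hbot] at h1
    have h2 : g * v * g⁻¹ = 1 := mem_bot.mp h1
    apply hv1
    have e : v = g⁻¹ * (g * v * g⁻¹) * g := by group
    rw [e, h2]; group
  have hx0 : x ∉ normalizer (B0 : Set X) := fun hx => hW0 (h.C1 h0 hx)
  intro s hs
  have hyp' : BgHyp t K (MulAut.conj s • B0) := bg36_hyp_conj (h.hSK hs) h0
  have hW' := hconjW s (h.hSV hs)
  have hx' : x ∉ normalizer ((MulAut.conj s • B0 : Subgroup X) : Set X) :=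
    fun hx => hW' (h.C1 hyp' hx)
  obtain ⟨e, he, heq⟩ := h.P5 h0 hyp' hx0 hx' hW0 hW'
  have hg : e⁻¹ * s ∈ normalizer (B0 : Set X) := by
    rw [Cfsg.Agent.Helper35.mem_normalizer_iff_conj_smul_eq,
      ← Cfsg.Agent.Helper35.conj_smul_conj_smul, heq,
      Cfsg.Agent.Helper35.conj_smul_conj_smul]
    simp
  by_cases he1 : e = 1
  · rw [he1] at hg; simpa using hg
  exfalso
  have heS : e ∈ normalizer (S : Set X) := (zpowers_le.mpr h.hxS) he
  let φ : S → S := fun n => ⟨e * n.1 * e⁻¹ * n.1⁻¹,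
    mul_mem ((mem_normalizer_iff.mp heS n.1).mp n.2) (inv_mem n.2)⟩
  have hφ : Function.Injective φ := by
    intro n m hnm
    have h1 : e * n.1 * e⁻¹ * n.1⁻¹ = e * m.1 * e⁻¹ * m.1⁻¹ := congrArg Subtype.val hnm
    have h1' : n.1 * e⁻¹ * n.1⁻¹ = m.1 * e⁻¹ * m.1⁻¹ := by
      have e' : n.1 * e⁻¹ * n.1⁻¹ = e⁻¹ * (e * n.1 * e⁻¹ * n.1⁻¹) := by group
      rw [e', h1]; group
    have h2 : e * (m.1⁻¹ * n.1) = (m.1⁻¹ * n.1) * e := by
      calc e * (m.1⁻¹ * n.1) = e * m.1⁻¹ * (n.1 * e⁻¹ * n.1⁻¹) * n.1 * e := by group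
        _ = e * m.1⁻¹ * (m.1 * e⁻¹ * m.1⁻¹) * n.1 * e := by rw [h1']
        _ = (m.1⁻¹ * n.1) * e := by group
    have h3 := bg36_comm_of_comm_pow h.hr h.hxr he he1 h2
    have h4 : m.1⁻¹ * n.1 ∈ S ⊓ centralizer ({x} : Set X) :=
      mem_inf.mpr ⟨mul_mem (inv_mem m.2) n.2,
        by rw [mem_centralizer_singleton_iff]; exact h3.symm⟩
    rw [h.hCSx] at h4
    have h5 : m.1⁻¹ * n.1 = 1 := mem_bot.mp h4
    exact Subtype.ext (inv_mul_eq_one.mp h5).symm
  obtain ⟨n, hn⟩ := (Finite.injective_iff_surjective.mp hφ) ⟨s, hs⟩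
  have hn' : e * n.1 * e⁻¹ * n.1⁻¹ = s := congrArg Subtype.val hn
  have h6 : n.1 * e⁻¹ * n.1⁻¹ = e⁻¹ * s := by rw [← hn']; group
  have h7 : e⁻¹ ∈ normalizer ((MulAut.conj n.1⁻¹ • B0 : Subgroup X) : Set X) := by
    rw [bg36_mem_normalizer_conj, inv_inv, h6]; exact hg
  have h8 : x ∈ normalizer ((MulAut.conj n.1⁻¹ • B0 : Subgroup X) : Set X) :=
    bg36_mem_normalizer_of_pow h.hr h.hxr (inv_mem he) (by simpa using he1) h7
  exact hconjW n.1⁻¹ (h.hSV (inv_mem n.2))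
    (h.C1 (bg36_hyp_conj (h.hSK (inv_mem n.2)) h0) h8)

theorem final (h : BgAb p t r V K S x) : False := by
  have hcent : ∀ B : Subgroup X, BgHyp t K B →
      V ⊓ centralizer (B : Set X) ≤ centralizer (S : Set X) := by
    intro B hB
    by_cases hW : V ⊓ centralizer (B : Set X) = ⊥
    · rw [hW]; exact bot_le
    have hSB := h.P6 hB hW
    have hxB : x ∉ normalizer (B : Set X) := fun hx => hW (h.C1 hB hx)
    have hle := bg36_card_W_le h.ht h.hr h.hxr h.hVab h.hKab h.hKV h.copKV h.hCVK h.hxV h.hxK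
      hB hxB
    rw [h.cardD.1] at hle
    have hpf : Fact p.Prime := ⟨h.hp⟩
    have hWp : IsPGroup p ↥(V ⊓ centralizer (B : Set X)) :=
      bg36_isPGroup_of_pow (fun a ha => h.hVp a ha.1)
    obtain ⟨k, hk⟩ := IsPGroup.exists_card_eq hWp
    have hk0 : k ≠ 0 := by
      rintro rfl
      rw [pow_zero, card_eq_one] at hk
      exact hW hk
    have hcardW : Nat.card ↥(V ⊓ centralizer (B : Set X)) = p := by
      apply le_antisymm hle
      rw [hk]
      exact Nat.le_self_pow hk0 p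
    have hSW : S ≤ normalizer ((V ⊓ centralizer (B : Set X) : Subgroup X) : Set X) :=
      fun s hs => bg36_mem_normalizer_inf (h.hSV hs) (bg36_mem_normalizer_centralizer (hSB hs))
    have hSC : S ≤ centralizer ((V ⊓ centralizer (B : Set X) : Subgroup X) : Set X) := by
      intro s hs
      obtain ⟨k, hk⟩ := h.hSp ⟨s, hs⟩
      have hk' : s ^ (p ^ k) = 1 := by
        have h2 := congrArg Subtype.val hk
        simpa using h2
      exact Cfsg.Agent.S0100.mem_centralizer_of_mem_normalizer_of_card_prime _ hcardW s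
        (hSW hs) k hk'
    exact le_centralizer_iff.mp hSC
  have hV : V ≤ centralizer (S : Set X) := by
    have htf : Fact t.Prime := ⟨h.ht⟩
    have hA : Cfsg.IsElementaryAbelian t K :=
      ⟨⟨⟨fun a b => Subtype.ext (h.hKab a a.2 b b.2)⟩⟩, h.Kexp⟩
    have hX : ¬ t ∣ Nat.card V := by
      obtain ⟨c, hc⟩ := h.cardV'
      rw [hc]
      intro hdvd
      exact h.hpt ((Nat.prime_dvd_prime_iff_eq h.ht h.hp).mp (h.ht.dvd_of_dvd_pow hdvd)).symm
    apply Cfsg.Agent.Helper22.le_of_hyperplane_centralizers_le t K V hA hX h.hKV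
    intro B hBK hBi
    have hmul : Nat.card B * B.relIndex K = Nat.card K := by
      have h2 := relIndex_mul_relIndex ⊥ B K bot_le hBK
      rwa [relIndex_bot_left, relIndex_bot_left] at h2
    have hdvd : B.relIndex K ∣ t ^ r := by rw [← h.cardCK.2]; exact relIndex_dvd_card B K
    obtain ⟨j, hj, hje⟩ := (Nat.dvd_prime_pow h.ht).mp hdvd
    have hj1 : j ≤ 1 := by
      by_contra hcon
      push Not at hcon
      have h2 : t ^ 2 ≤ t ^ j := Nat.pow_le_pow_right h.ht.pos hcon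
      rw [← hje] at h2
      have h3 : t < t ^ 2 := by nlinarith [h.ht.two_le]
      omega
    interval_cases j
    · rw [pow_zero] at hje
      rw [hje, mul_one] at hmul
      have h2 : B = K := eq_of_le_of_card_ge hBK hmul.ge
      rw [h2, h.hCVK]; exact bot_le
    · rw [pow_one] at hje
      rw [hje] at hmul
      exact hcent B ⟨hBK, hmul⟩
  apply h.hS1
  rw [eq_bot_iff, ← h.hSfaith]
  exact le_inf le_rfl (le_centralizer_iff.mp hV)

end BgAb

/-- **B&G 3.6, final configuration, abelian case.** -/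
theorem bg36_abelian {X : Type u} [Group X] [Finite X] (hodd : Odd (Nat.card X)) {p t r : ℕ}
    (hp : p.Prime) (ht : t.Prime) (hr : r.Prime) (hpt : p ≠ t) (hpr : p ≠ r) (htr : t ≠ r)
    (V K S : Subgroup X) (x : X)
    (hVab : ∀ a ∈ V, ∀ b ∈ V, a * b = b * a) (hVp : ∀ a ∈ V, a ^ p = 1)
    (hKab : ∀ a ∈ K, ∀ b ∈ K, a * b = b * a) (hKt : IsPGroup t K)
    (hSp : IsPGroup p S) (hS1 : S ≠ ⊥)
    (hKV : K ≤ normalizer (V : Set X)) (hSV : S ≤ normalizer (V : Set X))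
    (hxV : x ∈ normalizer (V : Set X))
    (hSK : S ≤ normalizer (K : Set X)) (hxK : x ∈ normalizer (K : Set X))
    (hxS : x ∈ normalizer (S : Set X)) (hxr : orderOf x = r)
    (hCVK : V ⊓ centralizer (K : Set X) = ⊥)
    (hSfaith : S ⊓ centralizer (V : Set X) = ⊥)
    (hKfaith : K ⊓ centralizer (V : Set X) = ⊥)
    (hCSx : S ⊓ centralizer ({x} : Set X) = ⊥)
    (hSirr : ∀ S₀ : Subgroup X, S₀ ≤ S → x ∈ normalizer (S₀ : Set X) → S₀ = ⊥ ∨ S₀ = S)
    (hd : ∀ K₀ : Subgroup X, K₀ ≤ K → K₀ ≠ K → S ≤ normalizer (K₀ : Set X) →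
      x ∈ normalizer (K₀ : Set X) → K₀ ≤ centralizer (S : Set X))
    (hSK' : ¬ S ≤ centralizer (K : Set X))
    (hCVx : IsCyclic ↥(V ⊓ centralizer ({x} : Set X)))
    (hCKx : IsCyclic ↥(K ⊓ centralizer ({x} : Set X))) : False :=
  BgAb.final (p := p) (t := t) (r := r) (V := V) (K := K) (S := S) (x := x)
    ⟨hodd, hp, ht, hr, hpt, hpr, htr, hVab, hVp, hKab, hKt, hSp, hS1, hKV, hSV, hxV, hSK, hxK,
      hxS, hxr, hCVK, hSfaith, hKfaith, hCSx, hSirr, hd, hSK', hCVx, hCKx⟩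

end Cfsg.Agent.Helper55
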