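import Mathlib
import Cfsg.Agent.Helper98.C2Defs
import Cfsg.Prelude.Def_GeometricClasses

set_option autoImplicit false

/-! PIECE R2 of CALL S5634 (helper98): after the change of basis `P`, the stabiliser of the
decomposition `D` consists of the block-monomial matrices. -/

namespace Cfsg.Agent.Helper55.C2R2

open Matrix Cfsg.Agent.Helper98.C2
open scoped MatrixGroups

variable {K : Type*} [Field K]

theorem gl_inv_mulVec {F : Type*} [Field F] {n : ℕ} (A : GL (Fin n) F) (x : Fin n → F) :
    A⁻¹.1 *ᵥ (A.1 *ᵥ x) = x := by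
  rw [Matrix.mulVec_mulVec, ← Units.val_mul, inv_mul_cancel, Units.val_one, Matrix.one_mulVec]

theorem gl_mulVec_inv {F : Type*} [Field F] {n : ℕ} (A : GL (Fin n) F) (x : Fin n → F) :
    A.1 *ᵥ (A⁻¹.1 *ᵥ x) = x := by
  rw [Matrix.mulVec_mulVec, ← Units.val_mul, mul_inv_cancel, Units.val_one, Matrix.one_mulVec]

/-- PIECE R2 -/
theorem stab_iff_blkMono {F : Type*} [Field F] {n t : ℕ}
    (D : Fin t → Submodule F (Fin n → F)) (P : GL (Fin n) F) (blk : Fin n → Fin t)
    (hP : ∀ b : Fin t, D b = (coordBlock blk b).map (Matrix.toLin' P.1)) (g : GL (Fin n) F) :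
    g ∈ Cfsg.Geo.decompositionStabilizer D ↔ IsBlkMono blk (P⁻¹ * g * P : GL (Fin n) F).1 := by
  obtain ⟨G', hG'⟩ : ∃ G' : GL (Fin n) F, G' = P⁻¹ * g * P := ⟨_, rfl⟩
  rw [← hG']
  have hgP : g * P = P * G' := by rw [hG']; group
  have hPinj : Function.Injective (Matrix.toLin' P.1) := by
    intro x y hxy
    rw [Matrix.toLin'_apply, Matrix.toLin'_apply] at hxy
    have h1 := congrArg (fun z => P⁻¹.1 *ᵥ z) hxy
    simpa [gl_inv_mulVec] using h1
  have hA : ∀ (σ : Equiv.Perm (Fin t)) (b : Fin t),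
      (D b).map (Matrix.toLin' g.1) = D (σ b) ↔
        (coordBlock blk b).map (Matrix.toLin' G'.1) = coordBlock blk (σ b) := by
    intro σ b
    rw [hP b, hP (σ b), ← Submodule.map_comp, ← Matrix.toLin'_mul, ← Units.val_mul, hgP,
      Units.val_mul, Matrix.toLin'_mul, Submodule.map_comp]
    exact (Submodule.map_injective_of_injective hPinj).eq_iff
  have hstab : g ∈ Cfsg.Geo.decompositionStabilizer D ↔ ∃ σ : Equiv.Perm (Fin t),
      ∀ b, (coordBlock blk b).map (Matrix.toLin' G'.1) = coordBlock blk (σ b) := by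
    constructor
    · rintro ⟨σ, hσ⟩
      exact ⟨σ, fun b => (hA σ b).1 (hσ b)⟩
    · rintro ⟨σ, hσ⟩
      exact ⟨σ, fun b => (hA σ b).2 (hσ b)⟩
  rw [hstab]
  constructor
  · rintro ⟨σ, hσ⟩
    refine ⟨σ, fun i j hij => ?_⟩
    have hej : (Pi.single j 1 : Fin n → F) ∈ coordBlock blk (blk j) := by
      intro i' hi'
      have hne : i' ≠ j := fun h => hi' (by rw [h])
      simp [Pi.single_apply, hne]
    have hmap : Matrix.toLin' G'.1 (Pi.single j 1) ∈ coordBlock blk (σ (blk j)) := by
      rw [← hσ (blk j)]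
      exact Submodule.mem_map_of_mem hej
    have h0 := hmap i hij
    rw [Matrix.toLin'_apply, Matrix.mulVec_single_one] at h0
    exact h0
  · rintro ⟨σ, hσ⟩
    refine ⟨σ, fun b => ?_⟩
    have hle : ∀ (c : Fin t) (w : Fin n → F), w ∈ coordBlock blk c →
        ∀ i, blk i ≠ σ c → (G'.1 *ᵥ w) i = 0 := by
      intro c w hw i hi
      show ∑ j, G'.1 i j * w j = 0
      apply Finset.sum_eq_zero
      intro j _
      by_cases hj : blk j = c
      · rw [hσ i j (by rw [hj]; exact hi), zero_mul]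
      · rw [hw j hj, mul_zero]
    apply le_antisymm
    · rintro _ ⟨w, hw, rfl⟩
      intro i hi
      rw [Matrix.toLin'_apply]
      exact hle b w hw i hi
    · intro v hv
      refine ⟨G'⁻¹.1 *ᵥ v, ?_, by rw [Matrix.toLin'_apply, gl_mulVec_inv]⟩
      intro j0 hj0
      obtain ⟨w, hw⟩ : ∃ w : Fin n → F, w = G'⁻¹.1 *ᵥ v := ⟨_, rfl⟩
      rw [← hw]
      have hGw : G'.1 *ᵥ w = v := by rw [hw, gl_mulVec_inv]
      obtain ⟨wc, hwc⟩ : ∃ wc : Fin n → F, wc = fun j => if blk j = blk j0 then w j else 0 :=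
        ⟨_, rfl⟩
      have hwcj : ∀ j, wc j = if blk j = blk j0 then w j else 0 := fun j => by rw [hwc]
      have hwcmem : wc ∈ coordBlock blk (blk j0) := by
        intro j hj
        rw [hwcj, if_neg hj]
      have hzero : G'.1 *ᵥ wc = 0 := by
        funext i
        by_cases hi : blk i = σ (blk j0)
        · have h1 : (G'.1 *ᵥ wc) i = (G'.1 *ᵥ w) i := by
            show ∑ j, G'.1 i j * wc j = ∑ j, G'.1 i j * w j
            apply Finset.sum_congr rfl
            intro j _
            by_cases hj : blk j = blk j0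
            · rw [hwcj, if_pos hj]
            · have h0 : G'.1 i j = 0 :=
                hσ i j (by rw [hi]; exact fun h => hj (σ.injective h).symm)
              rw [h0, zero_mul, zero_mul]
          rw [h1, hGw]
          exact hv i (by rw [hi]; exact fun h => hj0 (σ.injective h))
        · exact hle (blk j0) wc hwcmem i hi
      have hwc0 : wc = 0 := by
        have h1 := congrArg (fun z => G'⁻¹.1 *ᵥ z) hzero
        simpa [gl_inv_mulVec] using h1
      have h2 : wc j0 = w j0 := by rw [hwcj, if_pos rfl]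
      rw [← h2, hwc0]
      rfl

end Cfsg.Agent.Helper55.C2R2
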