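import Cfsg.Agent.Helper1.C9Defs
import Cfsg.Agent.Helper25.CN

/-!
CALL S1376 (helper1), piece AB: `c9_abel`.
-/

set_option autoImplicit false

namespace Cfsg.Agent.Helper55

open Cfsg Subgroup

universe u

variable {G : Type u} [Group G] [Finite G]

/-- AB (pure).  For `a, b ∈ E`: `c := a b a⁻¹ b⁻¹ ∈ E ⊓ M'`; for `y ∈ H ≤ M'` the orders of `c` and
`y` are coprime (`hcop`), so `c y = y c` (nilpotent `M'`); `H ≠ ⊥` and `hreg` give `c = 1`. -/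
theorem c9_abel {M E H : Subgroup G} (hEM : E ≤ M) (hHM' : H ≤ ⁅M, M⁆)
    (hder : Group.IsNilpotent ↥⁅M, M⁆) (hH1 : H ≠ ⊥)
    (hcop : (Nat.card E).Coprime (Nat.card H))
    (hreg : ∀ e ∈ E, e ≠ 1 → ∀ y ∈ H, e * y = y * e → y = 1) :
    ∀ a ∈ E, ∀ b ∈ E, a * b = b * a := by
  intro a ha b hb
  by_contra hne
  have hcE : a * b * a⁻¹ * b⁻¹ ∈ E :=
    E.mul_mem (E.mul_mem (E.mul_mem ha hb) (E.inv_mem ha)) (E.inv_mem hb)
  have hcM' : a * b * a⁻¹ * b⁻¹ ∈ ⁅M, M⁆ := by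
    have := Subgroup.commutator_mem_commutator (hEM ha) (hEM hb)
    simpa [commutatorElement_def] using this
  have hc1 : a * b * a⁻¹ * b⁻¹ ≠ 1 := by
    intro h1
    apply hne
    calc a * b = (a * b * a⁻¹ * b⁻¹) * (b * a) := by group
      _ = b * a := by rw [h1, one_mul]
  obtain ⟨y, hyH, hy1⟩ : ∃ y ∈ H, y ≠ 1 := by
    by_contra hcon
    push_neg at hcon
    exact hH1 ((Subgroup.eq_bot_iff_forall H).2 hcon)
  have hyM' := hHM' hyH
  have hoc : orderOf (a * b * a⁻¹ * b⁻¹) ∣ Nat.card E := Subgroup.orderOf_dvd_natCard E hcE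
  have hoy : orderOf y ∣ Nat.card H := Subgroup.orderOf_dvd_natCard H hyH
  have hcopo : (orderOf (a * b * a⁻¹ * b⁻¹)).Coprime (orderOf y) :=
    Nat.Coprime.coprime_dvd_left hoc (Nat.Coprime.coprime_dvd_right hoy hcop)
  haveI := hder
  have hcomm := Cfsg.Agent.Helper25.commute_of_coprime_orderOf_of_isNilpotent ↥⁅M, M⁆
    ⟨a * b * a⁻¹ * b⁻¹, hcM'⟩ ⟨y, hyM'⟩ (by simpa [Subgroup.orderOf_mk] using hcopo)
  have hcy : a * b * a⁻¹ * b⁻¹ * y = y * (a * b * a⁻¹ * b⁻¹) := by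
    have := congrArg Subtype.val hcomm.eq
    simpa using this
  exact hy1 (hreg _ hcE hc1 y hyH hcy)

end Cfsg.Agent.Helper55
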