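import Cfsg.Agent.Helper1.C9Defs

/-!
CALL S1376 (helper1), piece REG: `c9_reg`.
-/

set_option autoImplicit false

namespace Cfsg.Agent.Helper55

open Cfsg Subgroup

universe u

variable {G : Type u} [Group G] [Finite G]

/-- REG (pure given `hsyl`).  For `e ≠ 1` in `E`: a power `e₁` of `e` has prime order `s`,
`s ∣ |E|`; apply `hsyl` to `zpowers e₁`.  For a Sylow `s`-subgroup `P` of `E`: trivial or `s ∣ |E|`;
apply `hsyl` to its image in `G`. -/
theorem c9_reg {M E H : Subgroup G} (hEM : E ≤ M)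
    (hEp : ∀ s : ℕ, s.Prime → s ∣ Nat.card E → s ∣ Nat.card M ∧ s ∉ sigma M)
    (hsyl : ∀ s : ℕ, s.Prime → s ∣ Nat.card M → s ∉ sigma M → ∀ P : Subgroup G, P ≤ M →
      IsPGroup s P → IsCyclic ↥P ∧ ∀ e ∈ P, e ≠ 1 → ∀ y ∈ H, e * y = y * e → y = 1) :
    (∀ e ∈ E, e ≠ 1 → ∀ y ∈ H, e * y = y * e → y = 1) ∧
      ∀ (s : ℕ) [Fact s.Prime] (P : Sylow s ↥E), IsCyclic ↥(P : Subgroup ↥E) := by
  refine ⟨?_, ?_⟩
  · intro e he he1 y hy hey
    have hoe1 : orderOf e ≠ 1 := fun h => he1 (orderOf_eq_one_iff.1 h)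
    have hoe0 : orderOf e ≠ 0 := (orderOf_pos e).ne'
    obtain ⟨s, hs, hsd⟩ := Nat.exists_prime_and_dvd hoe1
    have hsE : s ∣ Nat.card E := hsd.trans (Subgroup.orderOf_dvd_natCard E he)
    obtain ⟨hsM, hsσ⟩ := hEp s hs hsE
    set e₁ : G := e ^ (orderOf e / s) with he₁
    have ho₁ : orderOf e₁ = s := orderOf_pow_orderOf_div hoe0 hsd
    have he₁E : e₁ ∈ E := E.pow_mem he _
    have hPM : Subgroup.zpowers e₁ ≤ M := by
      rw [Subgroup.zpowers_le]
      exact hEM he₁E
    have hPp : IsPGroup s ↥(Subgroup.zpowers e₁) := by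
      apply IsPGroup.of_card (n := 1)
      rw [Nat.card_zpowers, ho₁, pow_one]
    have h := (hsyl s hs hsM hsσ (Subgroup.zpowers e₁) hPM hPp).2 e₁ (Subgroup.mem_zpowers e₁)
      (by
        intro h1
        rw [h1, orderOf_one] at ho₁
        exact hs.one_lt.ne ho₁) y hy
    apply h
    have hc : Commute e y := hey
    exact (hc.pow_left _).eq
  · intro s hsF P
    by_cases hP1 : Nat.card ↥(P : Subgroup ↥E) = 1
    · haveI : Subsingleton ↥(P : Subgroup ↥E) := (Nat.card_eq_one_iff_unique.1 hP1).1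
      exact isCyclic_of_subsingleton
    · have hs : s.Prime := hsF.out
      have hsP : s ∣ Nat.card ↥(P : Subgroup ↥E) := by
        rcases P.2.card_eq_or_dvd with h | h
        · exact absurd h hP1
        · exact h
      have hsE : s ∣ Nat.card E := hsP.trans (Subgroup.card_subgroup_dvd_card _)
      obtain ⟨hsM, hsσ⟩ := hEp s hs hsE
      have hPM : (P : Subgroup ↥E).map E.subtype ≤ M := by
        intro x hx
        obtain ⟨y, _, rfl⟩ := Subgroup.mem_map.1 hx
        exact hEM y.2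
      have hPp : IsPGroup s ↥((P : Subgroup ↥E).map E.subtype) := P.2.map E.subtype
      have hcyc := (hsyl s hs hsM hsσ _ hPM hPp).1
      have e := (P : Subgroup ↥E).equivMapOfInjective E.subtype E.subtype_injective
      exact (MulEquiv.isCyclic e).2 hcyc

end Cfsg.Agent.Helper55
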