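import Mathlib
import Cfsg.Agent.Helper9.OrdTools
import Cfsg.Agent.Helper8.SylSub

/-! PIECE E2C2 of CALL S4429 (helper8): the order of the centraliser of the involution `c`
with `N(Q) ≤ C(c)` (`Q` a Sylow 5-subgroup, `|N(Q)| = 20`) in a group of order 7920 whose
Sylow 11-subgroups are self-centralising. -/

set_option autoImplicit false

universe u

namespace Cfsg.Agent.Helper55

theorem o7920_five_cent_card {G : Type u} [Group G] [Finite G] (hG : Nat.card G = 7920)
    (hC11 : ∀ P : Sylow 11 G,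
      Nat.card (Subgroup.centralizer ((P : Subgroup G) : Set G)) = 11)
    (Q : Sylow 5 G)
    (hN : Nat.card (Subgroup.normalizer ((Q : Subgroup G) : Set G)) = 20)
    (c : G) (hc : orderOf c = 2)
    (hle : Subgroup.normalizer ((Q : Subgroup G) : Set G) ≤
      Subgroup.centralizer ({c} : Set G)) :
    Nat.card (Subgroup.centralizer ({c} : Set G)) = 20 ∨
    Nat.card (Subgroup.centralizer ({c} : Set G)) = 120 ∨
    Nat.card (Subgroup.centralizer ({c} : Set G)) = 720 := by
  haveI : Fact (Nat.Prime 5) := ⟨by norm_num⟩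
  haveI : Fact (Nat.Prime 11) := ⟨by norm_num⟩
  have hQX : (Q : Subgroup G) ≤ Subgroup.centralizer ({c} : Set G) :=
    Subgroup.le_normalizer.trans hle
  have hmul := Helper8.SylSub.card_eq_inf_normalizer_mul Q (Subgroup.centralizer ({c} : Set G)) hQX
  rw [inf_eq_right.mpr hle, hN] at hmul
  have hmod := Helper8.SylSub.card_sylow_mod 5 (Subgroup.centralizer ({c} : Set G))
  have hdvd : Nat.card (Subgroup.centralizer ({c} : Set G)) ∣ 7920 := by
    rw [← hG]; exact Subgroup.card_subgroup_dvd_card _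
  have hS11 : ∀ P : Sylow 11 G, Nat.card (P : Subgroup G) = 11 := fun P => by
    have h1 := Helper9.OrdTools.sylow_card (p := 11) 1 720 (by rw [hG]; norm_num) (by norm_num) P
    simpa using h1
  have h11 : ¬ 11 ∣ Nat.card (Subgroup.centralizer ({c} : Set G)) := by
    intro h
    obtain ⟨x, hx⟩ := exists_prime_orderOf_dvd_card' 11 h
    have hx' : orderOf (x : G) = 11 := by rw [Subgroup.orderOf_coe]; exact hx
    obtain ⟨P, hP⟩ := Helper9.OrdTools.exists_sylow_of_orderOf hS11 hx'
    have hxc : (x : G) * c = c * (x : G) := Subgroup.mem_centralizer_singleton_iff.mp x.2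
    have hcx : c ∈ Subgroup.centralizer ({(x : G)} : Set G) :=
      Subgroup.mem_centralizer_singleton_iff.mpr hxc.symm
    rw [Helper9.OrdTools.centralizer_singleton_eq hP] at hcx
    have h2 := Subgroup.orderOf_dvd_natCard _ hcx
    rw [hc, hC11 P] at h2
    omega
  obtain ⟨n, hn⟩ : ∃ n, n = Nat.card (Sylow 5 (Subgroup.centralizer ({c} : Set G))) := ⟨_, rfl⟩
  rw [← hn] at hmul hmod
  rw [hmul] at hdvd h11 ⊢
  have hn396 : n ∣ 396 := Nat.dvd_of_mul_dvd_mul_left (by norm_num : 0 < 20) (by
    have e : 20 * 396 = 7920 := by norm_num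
    rw [e]; exact hdvd)
  have h11n : ¬ 11 ∣ n := fun h => h11 (Dvd.dvd.mul_left h 20)
  have hcop : Nat.Coprime n 11 :=
    ((Nat.Prime.coprime_iff_not_dvd (by norm_num : Nat.Prime 11)).mpr h11n).symm
  have hn36 : n ∣ 36 := hcop.dvd_of_dvd_mul_right (by
    have e : 36 * 11 = 396 := by norm_num
    rw [e]; exact hn396)
  have hle36 : n ≤ 36 := Nat.le_of_dvd (by norm_num) hn36
  interval_cases n <;> omega

end Cfsg.Agent.Helper55
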