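import Mathlib
import Cfsg.Agent.Lead.H581Defs

set_option autoImplicit false

/-! PIECE A6b of CALL S4221 (lead, Hall 5.8.1), auxiliary part: the double count of the triples
`(u, a', c')` (`u` an involution moving `a'` and `c'`, `c' ∉ {a', u a'}`), with the conclusions
of pieces A3 and A6a as hypotheses. -/

namespace Cfsg.Agent.Helper55.H581A6b

open Cfsg.Agent.Lead.H581 Equiv

variable {α : Type*} [Fintype α] [DecidableEq α]

/-- The number of quadruples of pairwise distinct points. -/
theorem dist4_card :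
    Nat.card {q : α × α × α × α // Dist4 q.1 q.2.1 q.2.2.1 q.2.2.2}
      = Fintype.card α * (Fintype.card α - 1) * (Fintype.card α - 2) * (Fintype.card α - 3) := by
  classical
  have e : {q : α × α × α × α // Dist4 q.1 q.2.1 q.2.2.1 q.2.2.2} ≃ (Fin 4 ↪ α) :=
    { toFun := fun q => ⟨![q.1.1, q.1.2.1, q.1.2.2.1, q.1.2.2.2], by
        obtain ⟨⟨a, b, c, d⟩, hq⟩ := q
        have hq' : a ≠ b ∧ a ≠ c ∧ a ≠ d ∧ b ≠ c ∧ b ≠ d ∧ c ≠ d := hq
        obtain ⟨h1, h2, h3, h4, h5, h6⟩ := hq'
        show Function.Injective ![a, b, c, d]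
        intro i j hij
        fin_cases i <;> fin_cases j <;> first
          | rfl
          | exact absurd hij h1 | exact absurd hij h2 | exact absurd hij h3
          | exact absurd hij h4 | exact absurd hij h5 | exact absurd hij h6
          | exact absurd hij.symm h1 | exact absurd hij.symm h2 | exact absurd hij.symm h3
          | exact absurd hij.symm h4 | exact absurd hij.symm h5 | exact absurd hij.symm h6⟩
      invFun := fun f => ⟨(f 0, f 1, f 2, f 3), by
        refine ⟨?_, ?_, ?_, ?_, ?_, ?_⟩ <;>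
        · intro h
          have := f.injective h
          revert this
          decide⟩
      left_inv := fun q => by
        obtain ⟨⟨a, b, c, d⟩, hq⟩ := q
        rfl
      right_inv := fun f => by
        ext i
        fin_cases i <;> rfl }
  rw [Nat.card_congr e, Nat.card_eq_fintype_card, Fintype.card_embedding_eq, Fintype.card_fin]
  simp only [Nat.descFactorial_succ, Nat.descFactorial_zero, Nat.sub_zero]
  ring

theorem count_A_aux (G : Subgroup (Perm α))
    (hfix : ∀ u : Perm α, u ∈ G → u * u = 1 → u ≠ 1 → nfix u = f0 α) (i : ℕ)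
    (hi : ∀ a' b' c' d' : α, Dist4 a' b' c' d' → (invA G a' b' c' d').ncard = i) :
    {u : Perm α | u ∈ G ∧ u * u = 1 ∧ u ≠ 1}.ncard *
        ((Fintype.card α - f0 α) * (Fintype.card α - f0 α - 2)) =
      Fintype.card α * (Fintype.card α - 1) * (Fintype.card α - 2) * (Fintype.card α - 3) * i := by
  classical
  obtain ⟨T, hT⟩ : ∃ T : Finset (Perm α × α × α), ∀ t, t ∈ T ↔
      (t.1 ∈ G ∧ t.1 * t.1 = 1 ∧ t.1 t.2.1 ≠ t.2.1 ∧ t.1 t.2.2 ≠ t.2.2 ∧ t.2.2 ≠ t.2.1 ∧
        t.2.2 ≠ t.1 t.2.1) :=
    ⟨Finset.univ.filter (fun t => t.1 ∈ G ∧ t.1 * t.1 = 1 ∧ t.1 t.2.1 ≠ t.2.1 ∧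
      t.1 t.2.2 ≠ t.2.2 ∧ t.2.2 ≠ t.2.1 ∧ t.2.2 ≠ t.1 t.2.1), fun t => by simp⟩
  obtain ⟨I, hI⟩ : ∃ I : Finset (Perm α), ∀ u, u ∈ I ↔ (u ∈ G ∧ u * u = 1 ∧ u ≠ 1) :=
    ⟨Finset.univ.filter (fun u => u ∈ G ∧ u * u = 1 ∧ u ≠ 1), fun u => by simp⟩
  obtain ⟨D, hD⟩ : ∃ D : Finset (α × α × α × α), ∀ q, q ∈ D ↔ Dist4 q.1 q.2.1 q.2.2.1 q.2.2.2 :=
    ⟨Finset.univ.filter (fun q => Dist4 q.1 q.2.1 q.2.2.1 q.2.2.2), fun q => by simp⟩
  have hIcard : {u : Perm α | u ∈ G ∧ u * u = 1 ∧ u ≠ 1}.ncard = I.card := by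
    rw [← Set.ncard_coe_finset]
    congr 1
    ext u
    simp [hI]
  have hDcard : D.card =
      Fintype.card α * (Fintype.card α - 1) * (Fintype.card α - 2) * (Fintype.card α - 3) := by
    rw [← dist4_card, Nat.card_eq_fintype_card, Fintype.card_subtype]
    congr 1
    ext q
    simp [hD]
  have huu : ∀ u : Perm α, u * u = 1 → ∀ x, u (u x) = x := fun u hu x => by
    have := congrArg (fun v : Perm α => v x) hu
    simpa using this
  -- count 1
  have h1 : T.card = I.card * ((Fintype.card α - f0 α) * (Fintype.card α - f0 α - 2)) := by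
    have hmaps : ∀ t ∈ T, t.1 ∈ I := by
      intro t ht
      obtain ⟨h1, h2, h3, -⟩ := (hT t).1 ht
      refine (hI _).2 ⟨h1, h2, ?_⟩
      intro h
      rw [h] at h3
      exact h3 rfl
    have hconst : ∀ u ∈ I, (T.filter (fun t => t.1 = u)).card =
        (Fintype.card α - f0 α) * (Fintype.card α - f0 α - 2) := by
      intro u hu
      obtain ⟨huG, hu2, hu1⟩ := (hI u).1 hu
      obtain ⟨Mv, hMv⟩ : ∃ Mv : Finset α, ∀ x, x ∈ Mv ↔ u x ≠ x :=
        ⟨Finset.univ.filter (fun x => u x ≠ x), fun x => by simp⟩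
      have hMvcard : Mv.card = Fintype.card α - f0 α := by
        have hsum := Finset.card_filter_add_card_filter_not (s := (Finset.univ : Finset α))
          (fun x => u x = x)
        have hn := hfix u huG hu2 hu1
        unfold nfix at hn
        have hMv' : Mv = Finset.univ.filter (fun x => ¬ u x = x) := by
          ext x
          simp [hMv]
        rw [hMv']
        rw [hn, Finset.card_univ] at hsum
        omega
      have hfib : (T.filter (fun t => t.1 = u)).card =
          (Mv.sigma (fun a' => (Mv.erase a').erase (u a'))).card := by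
        refine Finset.card_bij (fun t _ => ⟨t.2.1, t.2.2⟩) ?_ ?_ ?_
        · intro t ht
          rw [Finset.mem_filter] at ht
          obtain ⟨ht, rfl⟩ := ht
          obtain ⟨h1, h2, h3, h4, h5, h6⟩ := (hT t).1 ht
          rw [Finset.mem_sigma]
          refine ⟨(hMv _).2 h3, ?_⟩
          rw [Finset.mem_erase, Finset.mem_erase]
          exact ⟨h6, h5, (hMv _).2 h4⟩
        · intro t ht t' ht' heq
          rw [Finset.mem_filter] at ht ht'
          obtain ⟨u', a', c'⟩ := t
          obtain ⟨u'', a'', c''⟩ := t'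
          simp only [Sigma.mk.injEq, heq_eq_eq] at heq
          obtain ⟨rfl, rfl⟩ := heq
          have e1 : u' = u := ht.2
          have e2 : u'' = u := ht'.2
          rw [e1, e2]
        · intro p hp
          obtain ⟨a', c'⟩ := p
          rw [Finset.mem_sigma, Finset.mem_erase, Finset.mem_erase] at hp
          obtain ⟨ha', hc1, hc2, hc3⟩ := hp
          refine ⟨(u, a', c'), ?_, rfl⟩
          rw [Finset.mem_filter]
          exact ⟨(hT _).2 ⟨huG, hu2, (hMv _).1 ha', (hMv _).1 hc3, hc2, hc1⟩, rfl⟩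
      have hinner : ∀ a' ∈ Mv, ((Mv.erase a').erase (u a')).card = Fintype.card α - f0 α - 2 := by
        intro a' ha'
        have hua' : u a' ∈ Mv.erase a' := by
          rw [Finset.mem_erase]
          refine ⟨(hMv _).1 ha', (hMv _).2 ?_⟩
          rw [huu u hu2]
          exact fun h => (hMv _).1 ha' h.symm
        rw [Finset.card_erase_of_mem hua', Finset.card_erase_of_mem ha', hMvcard]
        omega
      rw [hfib, Finset.card_sigma, Finset.sum_const_nat hinner, hMvcard]
    rw [Finset.card_eq_sum_card_fiberwise (f := Prod.fst) (t := I) (fun x hx => hmaps x hx),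
      Finset.sum_const_nat hconst]
  -- count 2
  have h2 : T.card = D.card * i := by
    have hmaps : ∀ t ∈ T, (t.2.1, t.1 t.2.1, t.2.2, t.1 t.2.2) ∈ D := by
      intro t ht
      obtain ⟨h1, h2, h3, h4, h5, h6⟩ := (hT t).1 ht
      refine (hD _).2 ⟨fun h => h3 h.symm, fun h => h5 h.symm, ?_, fun h => h6 h.symm, ?_,
        fun h => h4 h.symm⟩
      · intro h
        apply h6
        have := congrArg t.1 h
        rw [huu _ h2] at this
        exact this.symm
      · intro h
        exact h5 (t.1.injective h).symm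
    have hconst : ∀ q ∈ D, (T.filter (fun t : Perm α × α × α =>
        (t.2.1, t.1 t.2.1, t.2.2, t.1 t.2.2) = q)).card = i := by
      intro q hq
      obtain ⟨a', b', c', d'⟩ := q
      have hq' : Dist4 a' b' c' d' := (hD _).1 hq
      obtain ⟨h1, h2, h3, h4, h5, h6⟩ := hq'
      obtain ⟨A, hA⟩ : ∃ A : Finset (Perm α), ∀ u, u ∈ A ↔
          (u ∈ G ∧ u * u = 1 ∧ u a' = b' ∧ u c' = d') :=
        ⟨Finset.univ.filter (fun u => u ∈ G ∧ u * u = 1 ∧ u a' = b' ∧ u c' = d'),
          fun u => by simp⟩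
      have hAcard : (invA G a' b' c' d').ncard = A.card := by
        rw [← Set.ncard_coe_finset]
        congr 1
        ext u
        simp [hA, invA]
      rw [← hi a' b' c' d' ⟨h1, h2, h3, h4, h5, h6⟩, hAcard]
      refine Finset.card_bij (fun t _ => t.1) ?_ ?_ ?_
      · intro t ht
        rw [Finset.mem_filter] at ht
        obtain ⟨ht, hφ⟩ := ht
        simp only [Prod.mk.injEq] at hφ
        obtain ⟨e1, e2, e3, e4⟩ := hφ
        obtain ⟨k1, k2, -⟩ := (hT t).1 ht
        refine (hA _).2 ⟨k1, k2, ?_, ?_⟩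
        · rw [← e1]; exact e2
        · rw [← e3]; exact e4
      · intro t ht t' ht' heq
        rw [Finset.mem_filter] at ht ht'
        obtain ⟨-, hφ⟩ := ht
        obtain ⟨-, hφ'⟩ := ht'
        simp only [Prod.mk.injEq] at hφ hφ'
        obtain ⟨u', x', y'⟩ := t
        obtain ⟨u'', x'', y''⟩ := t'
        have e0 : u' = u'' := heq
        have e1 : x' = x'' := hφ.1.trans hφ'.1.symm
        have e2 : y' = y'' := hφ.2.2.1.trans hφ'.2.2.1.symm
        rw [e0, e1, e2]
      · intro u hu
        obtain ⟨k1, k2, k3, k4⟩ := (hA u).1 hu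
        refine ⟨(u, a', c'), ?_, rfl⟩
        rw [Finset.mem_filter]
        refine ⟨(hT _).2 ⟨k1, k2, ?_, ?_, ?_, ?_⟩, ?_⟩
        · show u a' ≠ a'
          rw [k3]; exact fun h => h1 h.symm
        · show u c' ≠ c'
          rw [k4]; exact fun h => h6 h.symm
        · exact fun h => h2 h.symm
        · show c' ≠ u a'
          rw [k3]; exact fun h => h4 h.symm
        · show (a', u a', c', u c') = (a', b', c', d')
          rw [k3, k4]
    rw [Finset.card_eq_sum_card_fiberwise
      (f := fun t : Perm α × α × α => (t.2.1, t.1 t.2.1, t.2.2, t.1 t.2.2)) (t := D)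
      (fun x hx => hmaps x hx), Finset.sum_const_nat hconst]
  rw [hIcard, ← h1, h2, hDcard]

end Cfsg.Agent.Helper55.H581A6b
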