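import Mathlib
import Cfsg.Agent.Lead.H581Defs
import Cfsg.Agent.Helper55.H581A6bAux
import Cfsg.Agent.Helper47.H581A3
import Cfsg.Agent.Helper93.H581A6a

set_option autoImplicit false

/-! PIECE A6b of CALL S4221 (lead, Hall 5.8.1): the count of involutions through the pairs of
transpositions. -/

namespace Cfsg.Agent.Helper55.H581A6b

open Cfsg.Agent.Lead.H581 Equiv

variable {α : Type*} [Fintype α] [DecidableEq α]

/-- PIECE A6b -/
theorem count_A (G : Subgroup (Perm α)) (h : ℕ) (H : Hyp G h) (hn : 6 ≤ Fintype.card α) (a b c d : α)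
    (hd : Dist4 a b c d) :
    {u : Perm α | u ∈ G ∧ u * u = 1 ∧ u ≠ 1}.ncard *
        ((Fintype.card α - f0 α) * (Fintype.card α - f0 α - 2)) =
      Fintype.card α * (Fintype.card α - 1) * (Fintype.card α - 2) * (Fintype.card α - 3) *
        (invA G a b c d).ncard :=
  count_A_aux G
    (fun u hu hu2 hu1 => Cfsg.Agent.Helper47.H581A3.nfix_inv G h H hn u hu hu2 hu1) _
    (fun a' b' c' d' hd' =>
      Cfsg.Agent.Helper93.H581A6a.invA_ncard_eq G h H a' b' c' d' a b c d hd' hd)

end Cfsg.Agent.Helper55.H581A6b
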