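import Mathlib
import Cfsg.Agent.Helper57.J1oDefs

/-! PIECE P12 of CALL S4274 (helper57): no simple group of order 35112 (given the Sylow data
`J1oSylData`). -/

set_option autoImplicit false

namespace Cfsg.Agent.Helper55

open Cfsg.Agent.Helper57

universe u

theorem j1o_no_simple_35112 (SD : J1oSylData.{u}) {H : Type u} [Group H] [Finite H]
    [IsSimpleGroup H]
    (h : Nat.card H = 35112) : False := by
  have hp7 : Fact (Nat.Prime 7) := ⟨by norm_num⟩
  have hp11 : Fact (Nat.Prime 11) := ⟨by norm_num⟩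
  have hp19 : Fact (Nat.Prime 19) := ⟨by norm_num⟩
  have key7 : 15048 ≤ Nat.card {g : H // 7 ∣ orderOf g} ∧ (¬ ∃ g : H, orderOf g = 7 * 11) ∧
      (¬ ∃ g : H, orderOf g = 7 * 19) := by
    obtain ⟨n, e, c, a1, a2, a3, a4, a5, a6, a7, -, a9, -, a11⟩ :=
      SD H 7 (by rw [h]; norm_num) (by rw [h]; norm_num) (by rw [h]; norm_num)
    rw [h] at a1 a4
    have hm := j1o_mem_opts (by norm_num) a1 a2 a3 a5 a6
    rw [show j1oOpts 35112 7 = [(8, 3, 209), (22, 2, 114), (22, 3, 76), (22, 6, 38), (57, 2, 44),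
      (1254, 2, 2)] from by decide +kernel] at hm
    simp only [List.mem_cons, Prod.mk.injEq, List.not_mem_nil, or_false] at hm
    rcases hm with ⟨rfl, rfl, rfl⟩ | ⟨rfl, rfl, rfl⟩ | ⟨rfl, rfl, rfl⟩ | ⟨rfl, rfl, rfl⟩ |
      ⟨rfl, rfl, rfl⟩ | ⟨rfl, rfl, rfl⟩
    · have h1 := a4 19 (by norm_num) (by norm_num); omega
    · have h1 := a7 19 (by norm_num) (by norm_num); omega
    · have h1 := a7 19 (by norm_num) (by norm_num); omega
    · have h1 := a7 19 (by norm_num) (by norm_num); omega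
    · have h1 := a7 11 (by norm_num) (by norm_num); omega
    · refine ⟨by omega, ?_, ?_⟩
      · intro hg
        have h1 := (a11 11 (by norm_num) (by norm_num)).mpr hg
        omega
      · intro hg
        have h1 := (a11 19 (by norm_num) (by norm_num)).mpr hg
        omega
  have key11 : 15960 ≤ Nat.card {g : H // 11 ∣ orderOf g} ∧
      (¬ ∃ g : H, orderOf g = 11 * 19) := by
    obtain ⟨n, e, c, a1, a2, a3, a4, a5, a6, a7, -, a9, -, a11⟩ :=
      SD H 11 (by rw [h]; norm_num) (by rw [h]; norm_num) (by rw [h]; norm_num)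
    rw [h] at a1 a4
    have hm := j1o_mem_opts (by norm_num) a1 a2 a3 a5 a6
    rw [show j1oOpts 35112 11 = [(12, 2, 133), (133, 2, 12), (1596, 2, 1)]
      from by decide +kernel] at hm
    simp only [List.mem_cons, Prod.mk.injEq, List.not_mem_nil, or_false] at hm
    rcases hm with ⟨rfl, rfl, rfl⟩ | ⟨rfl, rfl, rfl⟩ | ⟨rfl, rfl, rfl⟩
    · have h1 := a4 19 (by norm_num) (by norm_num); omega
    · refine ⟨by omega, ?_⟩
      intro hg
      have h1 := (a11 19 (by norm_num) (by norm_num)).mpr hg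
      omega
    · refine ⟨by omega, ?_⟩
      intro hg
      have h1 := (a11 19 (by norm_num) (by norm_num)).mpr hg
      omega
  have key19 : 5544 ≤ Nat.card {g : H // 19 ∣ orderOf g} := by
    obtain ⟨n, e, c, a1, a2, a3, a4, a5, a6, a7, -, a9, -, a11⟩ :=
      SD H 19 (by rw [h]; norm_num) (by rw [h]; norm_num) (by rw [h]; norm_num)
    rw [h] at a1 a4
    have hm := j1o_mem_opts (by norm_num) a1 a2 a3 a5 a6
    rw [show j1oOpts 35112 19 = [(77, 2, 12), (77, 3, 8), (77, 6, 4)]
      from by decide +kernel] at hm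
    simp only [List.mem_cons, Prod.mk.injEq, List.not_mem_nil, or_false] at hm
    rcases hm with ⟨rfl, rfl, rfl⟩ | ⟨rfl, rfl, rfl⟩ | ⟨rfl, rfl, rfl⟩ <;> omega
  obtain ⟨h7, h711, h719⟩ := key7
  obtain ⟨h11, h1119⟩ := key11
  have hcount := j1o_count4 (α := H) (fun g => 7 ∣ orderOf g) (fun g => 11 ∣ orderOf g)
    (fun g => 19 ∣ orderOf g) (fun _ => False) 1
    (by show ¬ 7 ∣ orderOf (1 : H); rw [orderOf_one]; norm_num)
    (by show ¬ 11 ∣ orderOf (1 : H); rw [orderOf_one]; norm_num)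
    (by show ¬ 19 ∣ orderOf (1 : H); rw [orderOf_one]; norm_num)
    (fun hf => hf)
    (fun g h1 h2 => h711 (j1o_exists_orderOf_mul (by norm_num) (by norm_num) (by norm_num) g h1 h2))
    (fun g h1 h2 => h719 (j1o_exists_orderOf_mul (by norm_num) (by norm_num) (by norm_num) g h1 h2))
    (fun g _ hf => hf)
    (fun g h1 h2 => h1119 (j1o_exists_orderOf_mul (by norm_num) (by norm_num) (by norm_num) g h1 h2))
    (fun g _ hf => hf) (fun g _ hf => hf)
  beta_reduce at hcount
  rw [h] at hcount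
  omega

end Cfsg.Agent.Helper55
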