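import Mathlib
import Cfsg.Agent.Helper52.K2B2b2

/-!
# Piece E of CALL S4648 (helper77), auxiliary part

Generation of a symmetric algebra over its centre by the `n ^ 2` elements `aᵢ ε bⱼ`, given that
the corner `εAε` is commutative (`kulE_gen_of_comm`), and the commutativity of the corner from
the local commutativity statement of piece B applied to an abstract copy `C` of the corner
(`kulE_corner_comm`).
-/

set_option autoImplicit false

namespace Cfsg.Agent.Helper55

universe u v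

section KulE

variable {k : Type v} [Field k] {A : Type u} [Ring A] [Algebra k A]

/-- If the corner `εAε` is commutative, `A` is generated over its centre by the `aᵢ ε bⱼ`. -/
theorem kulE_gen_of_comm {n : ℕ} (ε : A) (a b : Fin n → A) (hε : ε * ε = ε)
    (hab : ∑ i, a i * ε * b i = 1)
    (hcc : ∀ y₁ y₂ : A, ε * y₁ = y₁ → y₁ * ε = y₁ → ε * y₂ = y₂ → y₂ * ε = y₂ →
      y₁ * y₂ = y₂ * y₁)
    (x : A) :
    ∃ z : Fin n × Fin n → A, (∀ i y, z i * y = y * z i) ∧
      x = ∑ i : Fin n × Fin n, z i * (a i.1 * ε * b i.2) := by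
  have hc1 : ∀ i j, ε * (ε * b i * x * a j * ε) = ε * b i * x * a j * ε := by
    intro i j; simp only [← mul_assoc, hε]
  have hc2 : ∀ i j, (ε * b i * x * a j * ε) * ε = ε * b i * x * a j * ε := by
    intro i j; simp only [mul_assoc, hε]
  refine ⟨fun ij => ∑ m, a m * (ε * b ij.1 * x * a ij.2 * ε) * b m, ?_, ?_⟩
  · intro ij y
    exact Helper52.k2_central ε a b hε hab _ (hc1 _ _) (hc2 _ _)
      (fun y h1 h2 => hcc _ y (hc1 _ _) (hc2 _ _) h1 h2) y
  · have hx : x = ∑ i, ∑ j, a i * (ε * b i * x * a j * ε) * b j := by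
      calc x = (∑ i, a i * ε * b i) * x * (∑ j, a j * ε * b j) := by rw [hab, one_mul, mul_one]
        _ = ∑ i, ∑ j, a i * (ε * b i * x * a j * ε) * b j := by
          rw [Finset.sum_mul, Finset.sum_mul]
          refine Finset.sum_congr rfl fun i _ => ?_
          rw [Finset.mul_sum]
          refine Finset.sum_congr rfl fun j _ => ?_
          simp only [mul_assoc]
    rw [Fintype.sum_prod_type]
    conv_lhs => rw [hx]
    refine Finset.sum_congr rfl fun i _ => Finset.sum_congr rfl fun j _ => ?_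
    have hz := Helper52.k2_central ε a b hε hab _ (hc1 i j) (hc2 i j)
      (fun y h1 h2 => hcc _ y (hc1 i j) (hc2 i j) h1 h2)
    have hzε := Helper52.k2_central_mul ε a b hε hab _ (hc1 i j) (hc2 i j)
      (fun y h1 h2 => hcc _ y (hc1 i j) (hc2 i j) h1 h2)
    show a i * (ε * b i * x * a j * ε) * b j
      = (∑ m, a m * (ε * b i * x * a j * ε) * b m) * (a i * ε * b j)
    calc a i * (ε * b i * x * a j * ε) * b j
        = a i * ((∑ m, a m * (ε * b i * x * a j * ε) * b m) * ε) * b j := by rw [hzε]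
      _ = (a i * (∑ m, a m * (ε * b i * x * a j * ε) * b m)) * ε * b j := by
          simp only [mul_assoc]
      _ = ((∑ m, a m * (ε * b i * x * a j * ε) * b m) * a i) * ε * b j := by rw [hz (a i)]
      _ = _ := by simp only [mul_assoc]

/-- The corner `εAε` is commutative, given an abstract copy `C` of it (piece C) and the
commutativity of local symmetric algebras with small centre (piece B) for `C`. -/
theorem kulE_corner_comm [FiniteDimensional k A] (lam : A →ₗ[k] k)
    (hsym : ∀ x y, lam (x * y) = lam (y * x))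
    (hnd : ∀ x, (∀ y, lam (x * y) = 0) → x = 0)
    (hZ : ∀ v : Fin 5 → A, (∀ i a, v i * a = a * v i) → ¬ LinearIndependent k v)
    (n : ℕ) (hn : 0 < n) (g : A →ₐ[k] Matrix (Fin n) (Fin n) k)
    (N : ℕ) (hN : ∀ l : List A, l.length = N → (∀ x ∈ l, g x = 0) → l.prod = 0)
    (ε : A) (a b : Fin n → A) (hε : ε * ε = ε)
    (hgε : g ε = Matrix.single (⟨0, hn⟩ : Fin n) (⟨0, hn⟩ : Fin n) (1 : k))
    (hab : ∑ i, a i * ε * b i = 1)
    (C : Type u) [Ring C] [Algebra k C] (φ : C →ₗ[k] A)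
    (hinj : Function.Injective φ) (hmul : ∀ x y, φ (x * y) = φ x * φ y) (hone : φ 1 = ε)
    (hrange : ∀ a, (∃ x, φ x = a) ↔ (ε * a = a ∧ a * ε = a))
    (hB : ∀ (lam' : C →ₗ[k] k), (∀ x y, lam' (x * y) = lam' (y * x)) →
      (∀ x, (∀ y, lam' (x * y) = 0) → x = 0) → ∀ (π : C →ₐ[k] k) (N' : ℕ),
      (∀ l : List C, l.length = N' → (∀ x ∈ l, π x = 0) → l.prod = 0) →
      (∀ v : Fin 5 → C, (∀ i c, v i * c = c * v i) → ¬ LinearIndependent k v) →
      ∀ c c' : C, c * c' = c' * c) :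
    ∀ y₁ y₂ : A, ε * y₁ = y₁ → y₁ * ε = y₁ → ε * y₂ = y₂ → y₂ * ε = y₂ → y₁ * y₂ = y₂ * y₁ := by
  classical
  have hφε1 : ∀ c, ε * φ c = φ c := fun c => ((hrange (φ c)).1 ⟨c, rfl⟩).1
  have hφε2 : ∀ c, φ c * ε = φ c := fun c => ((hrange (φ c)).1 ⟨c, rfl⟩).2
  have hgφ : ∀ c, g (φ c)
      = Matrix.single (⟨0, hn⟩ : Fin n) (⟨0, hn⟩ : Fin n) (g (φ c) ⟨0, hn⟩ ⟨0, hn⟩) := by
    intro c
    have hx : g (φ c) = g ε * g (φ c) * g ε := by
      rw [← map_mul, ← map_mul, hφε1, hφε2]
    rw [hgε, Matrix.single_mul_mul_single, one_mul, mul_one] at hx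
    exact hx
  -- the augmentation of the corner
  obtain ⟨πl, hπl⟩ : ∃ πl : C →ₗ[k] k, ∀ c, πl c = g (φ c) ⟨0, hn⟩ ⟨0, hn⟩ :=
    ⟨{ toFun := fun c => g (φ c) ⟨0, hn⟩ ⟨0, hn⟩
       map_add' := by
         intro x y
         rw [map_add, map_add, Matrix.add_apply]
       map_smul' := by
         intro r x
         rw [map_smul, map_smul, Matrix.smul_apply, RingHom.id_apply] }, fun c => rfl⟩
  have hπone : πl 1 = 1 := by
    rw [hπl, hone, hgε, Matrix.single_apply_same]
  have hπmul : ∀ x y, πl (x * y) = πl x * πl y := by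
    intro x y
    rw [hπl, hπl, hπl, hmul, map_mul]
    obtain ⟨α, hα⟩ : ∃ α, g (φ x) = Matrix.single (⟨0, hn⟩ : Fin n) (⟨0, hn⟩ : Fin n) α :=
      ⟨_, hgφ x⟩
    obtain ⟨β, hβ⟩ : ∃ β, g (φ y) = Matrix.single (⟨0, hn⟩ : Fin n) (⟨0, hn⟩ : Fin n) β :=
      ⟨_, hgφ y⟩
    rw [hα, hβ, Matrix.single_mul_single_same, Matrix.single_apply_same,
      Matrix.single_apply_same, Matrix.single_apply_same]
  obtain ⟨π, hπ⟩ : ∃ π : C →ₐ[k] k, ∀ c, π c = g (φ c) ⟨0, hn⟩ ⟨0, hn⟩ :=
    ⟨AlgHom.ofLinearMap πl hπone hπmul, fun c => hπl c⟩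
  have hπ0 : ∀ c, π c = 0 → g (φ c) = 0 := by
    intro c hc
    rw [hgφ c, ← hπ c, hc, Matrix.single_zero]
  have hprod : ∀ l : List C, φ l.prod = ε * (l.map φ).prod := by
    intro l
    induction l with
    | nil => rw [List.prod_nil, List.map_nil, List.prod_nil, mul_one, hone]
    | cons c l ih =>
      rw [List.prod_cons, List.map_cons, List.prod_cons, hmul, ih, ← mul_assoc, ← mul_assoc,
        hφε2, hφε1]
  have hN' : ∀ l : List C, l.length = N → (∀ x ∈ l, π x = 0) → l.prod = 0 := by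
    intro l hl h
    apply hinj
    rw [map_zero, hprod, hN (l.map φ) (by rw [List.length_map, hl]) (by
      intro x hx
      obtain ⟨c, hc, rfl⟩ := List.mem_map.1 hx
      exact hπ0 c (h c hc)), mul_zero]
  -- the symmetrizing form of the corner
  have hsym' : ∀ x y, (lam.comp φ) (x * y) = (lam.comp φ) (y * x) := by
    intro x y
    rw [LinearMap.comp_apply, LinearMap.comp_apply, hmul, hmul, hsym]
  have hnd' : ∀ x, (∀ y, (lam.comp φ) (x * y) = 0) → x = 0 := by
    intro x hx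
    apply hinj
    rw [map_zero]
    apply hnd
    intro y
    obtain ⟨y', hy'⟩ := (hrange (ε * y * ε)).2
      ⟨by simp only [← mul_assoc, hε], by simp only [mul_assoc, hε]⟩
    have h1 := hx y'
    rw [LinearMap.comp_apply, hmul, hy'] at h1
    have h2 : lam (φ x * y) = lam (φ x * (ε * y * ε)) := by
      calc lam (φ x * y) = lam (ε * (φ x * y)) := by rw [← mul_assoc, hφε1]
        _ = lam (φ x * y * ε) := hsym _ _
        _ = lam (φ x * ε * y * ε) := by rw [hφε2]
        _ = lam (φ x * (ε * y * ε)) := by simp only [mul_assoc]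
    rw [h2, h1]
  -- the centre of the corner
  have hZ' : ∀ v : Fin 5 → C, (∀ i c, v i * c = c * v i) → ¬ LinearIndependent k v := by
    intro v hv hli
    have hc : ∀ i, ∀ y, ε * y = y → y * ε = y → φ (v i) * y = y * φ (v i) := by
      intro i y h1 h2
      obtain ⟨c, rfl⟩ := (hrange y).2 ⟨h1, h2⟩
      rw [← hmul, ← hmul, hv]
    apply hZ (fun i => ∑ m, a m * φ (v i) * b m)
    · intro i y
      exact Helper52.k2_central ε a b hε hab _ (hφε1 _) (hφε2 _) (hc i) y
    · rw [Fintype.linearIndependent_iff] at hli ⊢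
      intro c hsum
      apply hli c
      apply hinj
      rw [map_zero, map_sum]
      have h1 := congrArg (fun t => t * ε) hsum
      simp only [Finset.sum_mul, smul_mul_assoc, zero_mul] at h1
      rw [← h1]
      refine Finset.sum_congr rfl fun i _ => ?_
      rw [map_smul, ← Finset.sum_mul,
        Helper52.k2_central_mul ε a b hε hab _ (hφε1 _) (hφε2 _) (hc i)]
  have hcomm := hB (lam.comp φ) hsym' hnd' π N hN' hZ'
  intro y₁ y₂ h1 h2 h3 h4
  obtain ⟨c₁, rfl⟩ := (hrange y₁).2 ⟨h1, h2⟩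
  obtain ⟨c₂, rfl⟩ := (hrange y₂).2 ⟨h3, h4⟩
  rw [← hmul, ← hmul, hcomm]

end KulE

end Cfsg.Agent.Helper55
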