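import Mathlib
import Cfsg.Agent.Helper64.LW2Defs

/-! PIECE C2 of CALL S0745 (helper64): `|G| = C(n, j) * |G^Δ|` for a `j`-homogeneous group whose
pointwise stabiliser of the `j`-set `Δ` is trivial. -/

set_option autoImplicit false

namespace Cfsg.Agent.Helper55.LW2C2

open Cfsg.Agent.Lead.LW Cfsg.Agent.Helper64.LW2
open scoped Pointwise

variable {α : Type*} [Fintype α] [DecidableEq α]

theorem card_eq_choose_mul (G : Subgroup (Equiv.Perm α)) (j : ℕ) (hG : Homog G j)
    (Δ : Finset α) (hΔ : Δ.card = j) (hbot : pstab G Δ = ⊥) :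
    Nat.card G = (Fintype.card α).choose j * Nat.card (induced G Δ) := by
  classical
  have hsm : ∀ g : G, g • Δ = (g : Equiv.Perm α) • Δ := fun g => rfl
  have horb : MulAction.orbit G Δ = {T : Finset α | T.card = j} := by
    ext T
    constructor
    · rintro ⟨g, rfl⟩
      show (g • Δ).card = j
      rw [hsm, Finset.card_smul_finset, hΔ]
    · intro hT
      obtain ⟨g, hg, hgT⟩ := hG Δ T hΔ hT
      refine ⟨⟨g, hg⟩, ?_⟩
      show (⟨g, hg⟩ : G) • Δ = T
      rw [hsm]
      ext b
      show b ∈ g • Δ ↔ b ∈ T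
      rw [← Finset.inv_smul_mem_iff]
      have h1 := hgT (g⁻¹ b)
      have e1 : g (g⁻¹ b) = b := by
        show (g * g⁻¹) b = b
        rw [mul_inv_cancel]; rfl
      rw [e1] at h1
      exact h1.symm
  have hcard_orb : (MulAction.orbit G Δ).ncard = (Fintype.card α).choose j := by
    rw [horb]
    have h1 : {T : Finset α | T.card = j}
        = ((Finset.powersetCard j (Finset.univ : Finset α) : Finset (Finset α)) :
            Set (Finset α)) := by
      ext T
      simp [Finset.mem_powersetCard]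
    rw [h1, Set.ncard_coe_finset, Finset.card_powersetCard, Finset.card_univ]
  have h1 := Subgroup.card_mul_index (MulAction.stabilizer G Δ)
  rw [MulAction.index_stabilizer, hcard_orb] at h1
  rw [← h1, mul_comm]
  congr 1
  have haux : ∀ gp : Equiv.Perm α, gp • Δ = Δ → ∀ x : α, gp x ∈ Δ ↔ x ∈ Δ := by
    intro gp h2 x
    constructor
    · intro hx
      rw [← h2] at hx
      exact (Finset.smul_mem_smul_finset_iff _).mp hx
    · intro hx
      rw [← h2]
      exact (Finset.smul_mem_smul_finset_iff _).mpr hx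
  have hstab : ∀ g : MulAction.stabilizer G Δ, ∀ x : α,
      ((g : G) : Equiv.Perm α) x ∈ Δ ↔ x ∈ Δ := by
    intro g x
    have h2 : ((g : G) : Equiv.Perm α) • Δ = Δ := by
      have h3 := g.2
      rw [MulAction.mem_stabilizer_iff, hsm] at h3
      exact h3
    exact haux _ h2 x
  let f : MulAction.stabilizer G Δ → induced G Δ := fun g =>
    ⟨Equiv.Perm.subtypePerm ((g : G) : Equiv.Perm α) (hstab g),
      ⟨((g : G) : Equiv.Perm α), (g : G).2, fun x => rfl⟩⟩
  have hinj : Function.Injective f := by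
    intro g h hgh
    have h3 : ∀ x ∈ Δ, ((g : G) : Equiv.Perm α) x = ((h : G) : Equiv.Perm α) x := by
      intro x hx
      have h4 := congrArg (fun σ : induced G Δ => ((σ : Equiv.Perm ↥Δ) ⟨x, hx⟩ : α)) hgh
      exact h4
    have h5 : ((h : G) : Equiv.Perm α)⁻¹ * ((g : G) : Equiv.Perm α) ∈ pstab G Δ := by
      refine ⟨G.mul_mem (G.inv_mem (h : G).2) (g : G).2, fun a ha => ?_⟩
      rw [Equiv.Perm.mul_apply, h3 a ha]
      show (((h : G) : Equiv.Perm α)⁻¹ * ((h : G) : Equiv.Perm α)) a = a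
      rw [inv_mul_cancel]; rfl
    rw [hbot, Subgroup.mem_bot] at h5
    have h6 : ((g : G) : Equiv.Perm α) = ((h : G) : Equiv.Perm α) := (inv_mul_eq_one.mp h5).symm
    exact Subtype.ext (Subtype.ext h6)
  have hsurj : Function.Surjective f := by
    rintro ⟨σ, g, hg, hgσ⟩
    have hsub : g • Δ ⊆ Δ := by
      intro b hb
      obtain ⟨y, hy, rfl⟩ := Finset.mem_smul_finset.mp hb
      have h2 := hgσ ⟨y, hy⟩
      show g y ∈ Δ
      have h3 : g y = ((σ ⟨y, hy⟩ : ↥Δ) : α) := h2
      rw [h3]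
      exact (σ ⟨y, hy⟩).2
    have heq : g • Δ = Δ :=
      Finset.eq_of_subset_of_card_le hsub (by rw [Finset.card_smul_finset])
    have hmem : (⟨g, hg⟩ : G) ∈ MulAction.stabilizer G Δ := by
      rw [MulAction.mem_stabilizer_iff, hsm]
      exact heq
    refine ⟨⟨⟨g, hg⟩, hmem⟩, ?_⟩
    apply Subtype.ext
    apply Equiv.ext
    intro x
    apply Subtype.ext
    exact hgσ x
  exact Nat.card_congr (Equiv.ofBijective f ⟨hinj, hsurj⟩)

end Cfsg.Agent.Helper55.LW2C2
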