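import Mathlib
import Cfsg.Agent.Helper64.LW2Defs

/-! PIECE X1 of CALL S0745 (helper64): if the pointwise stabiliser `K` of an `m`-set has order
at most `m + 1` (and `(m+1)`-point stabilisers are trivial), then `|K|` divides the order of the
group induced on a suitable `(m+1)`-set. -/

set_option autoImplicit false

namespace Cfsg.Agent.Helper55.LW2X1

open Cfsg.Agent.Lead.LW Cfsg.Agent.Helper64.LW2

variable {α : Type*} [Fintype α] [DecidableEq α]

theorem card_pstab_dvd_induced (G : Subgroup (Equiv.Perm α)) (m : ℕ)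
    (hbot : ∀ A : Finset α, A.card = m + 1 → pstab G A = ⊥) (Γ : Finset α) (hΓ : Γ.card = m)
    (hlt : m < Fintype.card α) (hs : Nat.card (pstab G Γ) ≤ m + 1) :
    ∃ A : Finset α, A.card = m + 1 ∧ Nat.card (pstab G Γ) ∣ Nat.card (induced G A) := by
  classical
  letI : Fintype ↥(pstab G Γ) := Fintype.ofFinite _
  have hinv : ∀ (k : Equiv.Perm α) (a : α), k⁻¹ (k a) = a := by
    intro k a
    show (k⁻¹ * k) a = a
    rw [inv_mul_cancel]; rfl
  obtain ⟨y, -, hy⟩ : ∃ y, y ∈ (Finset.univ : Finset α) ∧ y ∉ Γ :=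
    Finset.exists_mem_notMem_of_card_lt_card (by rw [hΓ, Finset.card_univ]; exact hlt)
  -- the orbit of `y`
  have hinjy : Function.Injective (fun k : ↥(pstab G Γ) => (k : Equiv.Perm α) y) := by
    intro k k' hkk
    have h1 : (k' : Equiv.Perm α)⁻¹ * (k : Equiv.Perm α) ∈ pstab G (insert y Γ) := by
      refine ⟨G.mul_mem (G.inv_mem k'.2.1) k.2.1, fun a ha => ?_⟩
      rw [Equiv.Perm.mul_apply]
      rcases Finset.mem_insert.mp ha with rfl | ha'
      · have h2 : (k : Equiv.Perm α) a = (k' : Equiv.Perm α) a := hkk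
        rw [h2]; exact hinv _ _
      · rw [k.2.2 a ha']
        have h2 : (k' : Equiv.Perm α) a = a := k'.2.2 a ha'
        calc (k' : Equiv.Perm α)⁻¹ a = (k' : Equiv.Perm α)⁻¹ ((k' : Equiv.Perm α) a) := by rw [h2]
          _ = a := hinv _ _
    rw [hbot _ (by rw [Finset.card_insert_of_notMem hy, hΓ]), Subgroup.mem_bot] at h1
    exact Subtype.ext (inv_mul_eq_one.mp h1).symm
  obtain ⟨O, hO⟩ : ∃ O : Finset α,
      O = Finset.image (fun k : ↥(pstab G Γ) => (k : Equiv.Perm α) y) Finset.univ := ⟨_, rfl⟩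
  have hOcard : O.card = Nat.card (pstab G Γ) := by
    rw [hO, Finset.card_image_of_injective _ hinjy, Finset.card_univ, Nat.card_eq_fintype_card]
  have hOmem : ∀ z, z ∈ O ↔ ∃ k ∈ pstab G Γ, k y = z := by
    intro z
    rw [hO, Finset.mem_image]
    constructor
    · rintro ⟨k, -, hk⟩
      exact ⟨k, k.2, hk⟩
    · rintro ⟨k, hk, hkz⟩
      exact ⟨⟨k, hk⟩, Finset.mem_univ _, hkz⟩
  have hOΓ : ∀ z ∈ O, z ∉ Γ := by
    intro z hz hzΓ
    obtain ⟨k, hk, rfl⟩ := (hOmem z).mp hz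
    have h1 : k (k y) = k y := hk.2 _ hzΓ
    have h2 : k y = y := k.injective h1
    rw [h2] at hzΓ
    exact hy hzΓ
  have hKpos : 0 < Nat.card (pstab G Γ) := Nat.card_pos
  obtain ⟨Γ', hΓ'sub, hΓ'card⟩ := Finset.exists_subset_card_eq
    (show m + 1 - Nat.card (pstab G Γ) ≤ Γ.card by rw [hΓ]; omega)
  have hdisj : Disjoint O Γ' := by
    rw [Finset.disjoint_left]
    intro z hz hz'
    exact hOΓ z hz (hΓ'sub hz')
  have hAcard : (O ∪ Γ').card = m + 1 := by
    rw [Finset.card_union_of_disjoint hdisj, hOcard, hΓ'card]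
    omega
  -- `K` preserves `A`
  have hpres1 : ∀ k ∈ pstab G Γ, ∀ x ∈ O ∪ Γ', k x ∈ O ∪ Γ' := by
    intro k hk x hx
    rcases Finset.mem_union.mp hx with hx | hx
    · obtain ⟨k₀, hk₀, rfl⟩ := (hOmem x).mp hx
      exact Finset.mem_union_left _ ((hOmem _).mpr ⟨k * k₀, (pstab G Γ).mul_mem hk hk₀, rfl⟩)
    · rw [hk.2 x (hΓ'sub hx)]
      exact Finset.mem_union_right _ hx
  have hpres : ∀ k : ↥(pstab G Γ), ∀ x : α,
      (k : Equiv.Perm α) x ∈ O ∪ Γ' ↔ x ∈ O ∪ Γ' := by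
    intro k x
    constructor
    · intro hx
      have h1 := hpres1 (k : Equiv.Perm α)⁻¹ ((pstab G Γ).inv_mem k.2) _ hx
      rw [hinv] at h1
      exact h1
    · intro hx
      exact hpres1 k k.2 x hx
  refine ⟨O ∪ Γ', hAcard, ?_⟩
  let f : ↥(pstab G Γ) →* ↥(induced G (O ∪ Γ')) := MonoidHom.mk'
    (fun k => ⟨Equiv.Perm.subtypePerm (k : Equiv.Perm α) (hpres k),
      ⟨(k : Equiv.Perm α), k.2.1, fun x => rfl⟩⟩)
    (by
      intro k k'
      apply Subtype.ext
      apply Equiv.ext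
      intro x
      apply Subtype.ext
      rfl)
  have hinj : Function.Injective f := by
    intro k k' hkk
    have h3 : ∀ x ∈ O ∪ Γ', (k : Equiv.Perm α) x = (k' : Equiv.Perm α) x := by
      intro x hx
      have h4 := congrArg
        (fun σ : induced G (O ∪ Γ') => ((σ : Equiv.Perm ↥(O ∪ Γ')) ⟨x, hx⟩ : α)) hkk
      exact h4
    have h5 : (k' : Equiv.Perm α)⁻¹ * (k : Equiv.Perm α) ∈ pstab G (O ∪ Γ') := by
      refine ⟨G.mul_mem (G.inv_mem k'.2.1) k.2.1, fun a ha => ?_⟩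
      rw [Equiv.Perm.mul_apply, h3 a ha]
      exact hinv _ _
    rw [hbot _ hAcard, Subgroup.mem_bot] at h5
    exact Subtype.ext (inv_mul_eq_one.mp h5).symm
  exact Subgroup.card_dvd_of_injective f hinj

end Cfsg.Agent.Helper55.LW2X1
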