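import Mathlib
import Cfsg.Agent.Lead.LWDefs
import Cfsg.Agent.Helper12.LWG2b
import Cfsg.Agent.Helper42.LWG3

set_option autoImplicit false

/-! PIECE A11 of CALL S0747 (lead): if one `k`-point stabiliser is trivial, all are. -/

namespace Cfsg.Agent.Helper55.LWA11

open Cfsg.Agent.Lead.LW

variable {α : Type*} [Fintype α] [DecidableEq α]

-- PIECE A11
theorem pstab_eq_bot_all (G : Subgroup (Equiv.Perm α)) (k : ℕ) (hG : KTrans G k) (Γ : Finset α)
    (hΓ : Γ.card = k) (h : pstab G Γ = ⊥) : ∀ Γ' : Finset α, Γ'.card = k → pstab G Γ' = ⊥ := by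
  intro Γ' hΓ'
  obtain ⟨g, hg, hgST⟩ := Cfsg.Agent.Helper12.LWG2b.ktrans_sets G k hG Γ' Γ hΓ' hΓ
  rw [eq_bot_iff]
  intro x hx
  have h1 := (Cfsg.Agent.Helper42.LWG3.pstab_conj G Γ' Γ g hg hgST x).1 hx
  rw [h, Subgroup.mem_bot] at h1
  rw [Subgroup.mem_bot]
  have h2 : x = g⁻¹ * (g * x * g⁻¹) * g := by group
  rw [h2, h1]
  group

end Cfsg.Agent.Helper55.LWA11
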