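import Mathlib
import Cfsg.Agent.Lead.LWDefs
import Cfsg.Agent.Helper58.LWG1b
import Cfsg.Agent.S0417

set_option autoImplicit false

/-! PIECE A12 of CALL S0747 (lead): a sharply `k`-transitive group of degree `k + 7` has
`k = 4` or `k = 5` (via S0417). -/

namespace Cfsg.Agent.Helper55.LWA12

open Cfsg.Agent.Lead.LW

variable {α : Type*} [Fintype α] [DecidableEq α]

-- PIECE A12  (via S0417)
theorem sharp_seven_le_five (G : Subgroup (Equiv.Perm α)) (k : ℕ) (hk : 4 ≤ k)
    (hn : Fintype.card α = k + 7) (hG : KTrans G k)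
    (hsharp : ∀ Γ : Finset α, Γ.card = k → pstab G Γ = ⊥) : k = 4 ∨ k = 5 := by
  by_contra hcon
  have hk6 : 6 ≤ k := by omega
  haveI : MulAction.IsMultiplyPretransitive G α k :=
    Cfsg.Agent.Helper58.LWG1b.pretransitive_of_ktrans G k hG
  have hst : ∀ x : Fin k ↪ α, MulAction.stabilizer G x = ⊥ := by
    intro x
    rw [eq_bot_iff]
    intro g hg
    rw [MulAction.mem_stabilizer_iff] at hg
    rw [Subgroup.mem_bot]
    have hmem : (g : Equiv.Perm α) ∈ pstab G (Finset.univ.map x) := by
      refine ⟨g.2, fun a ha => ?_⟩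
      obtain ⟨i, -, rfl⟩ := Finset.mem_map.mp ha
      have h1 := DFunLike.congr_fun hg i
      exact h1
    rw [hsharp (Finset.univ.map x) (by rw [Finset.card_map, Finset.card_univ, Fintype.card_fin]),
      Subgroup.mem_bot] at hmem
    exact Subtype.ext hmem
  have h3 := Cfsg.Agent.S0417.result G k hk6 (by omega) hst
  omega

end Cfsg.Agent.Helper55.LWA12
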