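import Cfsg.Agent.Helper45.OctH
import Cfsg.Agent.Helper45.OutH
import Cfsg.Agent.Helper61.TriS3
import Cfsg.Agent.Helper48.TriS4
import Cfsg.Agent.Helper61.TriD8F

set_option autoImplicit false
set_option linter.unusedSectionVars false
set_option linter.unusedSimpArgs false
set_option linter.unusedVariables false
set_option linter.style.haveILetI false

/-! PIECE S3O of CALL S2608 (helper45): `A ⧸ I ≃ S₃ × C_f` from the triality data. -/

universe u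

namespace Cfsg.Agent.Helper55.OctP

open Cfsg Matrix Module Cfsg.Agent.Helper45 Cfsg.Agent.Helper45.AO Cfsg.Agent.Helper45.OO
  Cfsg.Agent.Helper45.Oct

/-- PIECE S3O -/
theorem s3_out {A : Type*} [Group A] (I : Subgroup A) [I.Normal] (P : Subgroup A) (hIP : I ≤ P)
    (f : ℕ) (hf : 0 < f) (ψ γ θ : A)
    (hord : ∀ n : ℕ, ψ ^ n ∈ I ↔ f ∣ n)
    (hθψ : θ * ψ = ψ * θ) (hγψ : γ * ψ = ψ * γ)
    (hψP : ψ ∈ P) (hγP : γ ∈ P) (hγ2 : γ * γ = 1)
    (hP : ∀ x ∈ P, ∃ i : ℕ, (ψ ^ i)⁻¹ * x ∈ I ∨ (ψ ^ i)⁻¹ * x * γ ∈ I)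
    (htri : ∀ α : A, α ∈ P ∨ θ⁻¹ * α ∈ P ∨ θ⁻¹ * γ * α ∈ P)
    (hγI : ∀ i : ℕ, γ * ψ ^ i ∉ I)
    (hθγ : θ⁻¹ * γ * θ ∉ P)
    (hcard : Nat.card (A ⧸ I) = 6 * f) :
    Nonempty (A ⧸ I ≃* Equiv.Perm (Fin 3) × Multiplicative (ZMod f)) := by
  haveI : Finite (A ⧸ I) := Nat.finite_of_card_ne_zero (by rw [hcard]; omega)
  have hmk1 : ∀ a : A, (QuotientGroup.mk a : A ⧸ I) = 1 ↔ a ∈ I :=
    fun a => QuotientGroup.eq_one_iff a
  obtain ⟨z, hz⟩ : ∃ z : A ⧸ I, z = QuotientGroup.mk ψ := ⟨_, rfl⟩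
  obtain ⟨c, hc⟩ : ∃ c : A ⧸ I, c = QuotientGroup.mk γ := ⟨_, rfl⟩
  obtain ⟨t, ht⟩ : ∃ t : A ⧸ I, t = QuotientGroup.mk θ := ⟨_, rfl⟩
  have hzpow : ∀ n : ℕ, z ^ n = 1 ↔ f ∣ n := by
    intro n
    rw [hz, ← QuotientGroup.mk_pow, hmk1, hord]
  have hzord : orderOf z = f :=
    Nat.dvd_antisymm (orderOf_dvd_of_pow_eq_one ((hzpow f).2 dvd_rfl))
      ((hzpow _).1 (pow_orderOf_eq_one z))
  have hzγ : c * z = z * c := by
    rw [hz, hc, ← QuotientGroup.mk_mul, ← QuotientGroup.mk_mul, hγψ]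
  have hzθ : t * z = z * t := by
    rw [hz, ht, ← QuotientGroup.mk_mul, ← QuotientGroup.mk_mul, hθψ]
  have hcm : ∀ x : A ⧸ I, x ∈ Subgroup.centralizer ({z} : Set (A ⧸ I)) ↔ x * z = z * x :=
    fun x => Subgroup.mem_centralizer_singleton_iff
  have hzC : z ∈ Subgroup.centralizer ({z} : Set (A ⧸ I)) := (hcm z).2 rfl
  have hcC : c ∈ Subgroup.centralizer ({z} : Set (A ⧸ I)) := (hcm c).2 hzγ
  have htC : t ∈ Subgroup.centralizer ({z} : Set (A ⧸ I)) := (hcm t).2 hzθ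
  have hPC : ∀ p ∈ P,
      (QuotientGroup.mk p : A ⧸ I) ∈ Subgroup.centralizer ({z} : Set (A ⧸ I)) := by
    intro p hp
    obtain ⟨i, hi | hi⟩ := hP p hp
    · have h1 : (QuotientGroup.mk p : A ⧸ I) = z ^ i := by
        have h0 := (hmk1 _).2 hi
        rw [QuotientGroup.mk_mul, QuotientGroup.mk_inv, QuotientGroup.mk_pow, ← hz] at h0
        exact (inv_mul_eq_one.mp h0).symm
      rw [h1]; exact Subgroup.pow_mem _ hzC i
    · have h1 : (QuotientGroup.mk p : A ⧸ I) = z ^ i * c⁻¹ := by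
        have h0 := (hmk1 _).2 hi
        rw [QuotientGroup.mk_mul, QuotientGroup.mk_mul, QuotientGroup.mk_inv,
          QuotientGroup.mk_pow, ← hz, ← hc, mul_assoc, inv_mul_eq_one] at h0
        rw [h0, mul_inv_cancel_right]
      rw [h1]; exact Subgroup.mul_mem _ (Subgroup.pow_mem _ hzC i) (Subgroup.inv_mem _ hcC)
  have hcentral : ∀ g : A ⧸ I, g * z = z * g := by
    intro g
    obtain ⟨α, rfl⟩ := QuotientGroup.mk_surjective g
    apply (hcm _).1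
    rcases htri α with h | h | h
    · exact hPC α h
    · have h1 := hPC _ h
      rw [QuotientGroup.mk_mul, QuotientGroup.mk_inv, ← ht] at h1
      have h2 := Subgroup.mul_mem _ htC h1
      rwa [mul_inv_cancel_left] at h2
    · have h1 := hPC _ h
      rw [QuotientGroup.mk_mul, QuotientGroup.mk_mul, QuotientGroup.mk_inv, ← ht, ← hc] at h1
      have h2 := Subgroup.mul_mem _ (Subgroup.mul_mem _ (Subgroup.inv_mem _ hcC) htC) h1
      have h3 : c⁻¹ * t * (t⁻¹ * c * (QuotientGroup.mk α : A ⧸ I)) = QuotientGroup.mk α := by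
        group
      rwa [h3] at h2
  have hc2 : c * c = 1 := by
    rw [hc, ← QuotientGroup.mk_mul, hγ2]; rfl
  have hnat : ∀ i : ℤ, ∃ n : ℕ, z ^ i = z ^ n := by
    intro i
    have hmem : z ^ i ∈ Subgroup.zpowers z := Subgroup.zpow_mem_zpowers z i
    rw [← mem_powers_iff_mem_zpowers] at hmem
    obtain ⟨n, hn⟩ := (Submonoid.mem_powers_iff _ _).mp hmem
    exact ⟨n, hn.symm⟩
  have hcz : c ∉ Subgroup.zpowers z := by
    intro hmem
    obtain ⟨i, hi⟩ := Subgroup.mem_zpowers_iff.mp hmem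
    obtain ⟨n, hn⟩ := hnat i
    rw [hn] at hi
    apply hγI (n * (f - 1))
    rw [← hmk1, QuotientGroup.mk_mul, QuotientGroup.mk_pow, ← hz, ← hc, ← hi, ← pow_add, hzpow]
    obtain ⟨k, rfl⟩ : ∃ k, f = k + 1 := ⟨f - 1, by omega⟩
    exact ⟨n, by rw [Nat.add_sub_cancel]; ring⟩
  have htt : ∀ i : ℤ, t⁻¹ * c * t ≠ z ^ i ∧ t⁻¹ * c * t ≠ c * z ^ i := by
    intro i
    obtain ⟨n, hn⟩ := hnat i
    rw [hn]
    have key : ∀ y : A, y ∈ P → t⁻¹ * c * t ≠ (QuotientGroup.mk y : A ⧸ I) := by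
      intro y hy heq
      rw [ht, hc, ← QuotientGroup.mk_inv, ← QuotientGroup.mk_mul, ← QuotientGroup.mk_mul,
        QuotientGroup.eq] at heq
      apply hθγ
      have h1 : θ⁻¹ * γ * θ = y * ((θ⁻¹ * γ * θ)⁻¹ * y)⁻¹ := by group
      rw [h1]
      exact P.mul_mem hy (P.inv_mem (hIP heq))
    constructor
    · have h1 := key (ψ ^ n) (P.pow_mem hψP n)
      rwa [QuotientGroup.mk_pow, ← hz] at h1
    · have h1 := key (γ * ψ ^ n) (P.mul_mem hγP (P.pow_mem hψP n))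
      rwa [QuotientGroup.mk_mul, QuotientGroup.mk_pow, ← hz, ← hc] at h1
  exact Cfsg.Agent.Helper61.TriCall.s3_times_cyclic f z c t hzord hcentral hc2 hcz hcard htt

end Cfsg.Agent.Helper55.OctP
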