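import Mathlib

/-! PIECE Q8 of CALL S2787 (helper50): a group with a section `SL(2, p)`, `p` odd, has a
2-subgroup `⟨x, y⟩` with `x² ≠ 1`, `y² ≠ 1`, `xy ≠ yx`. -/

set_option autoImplicit false

namespace Cfsg.Agent.Helper55

open Matrix

theorem qrq8_isPGroup_zpowers {G : Type*} [Group G] (g : G) (h : g ^ 4 = 1) :
    IsPGroup 2 (Subgroup.zpowers g) := by
  rintro ⟨x, hx⟩
  obtain ⟨z, rfl⟩ := Subgroup.mem_zpowers_iff.mp hx
  refine ⟨2, Subtype.ext ?_⟩
  show (g ^ z) ^ (2 ^ 2) = 1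
  rw [show (2 : ℕ) ^ 2 = 4 from rfl, ← zpow_natCast, ← _root_.zpow_mul, mul_comm, _root_.zpow_mul,
    zpow_natCast, h, _root_.one_zpow]

/-- The quaternion generators of `SL(2, p)`, `p` odd. -/
theorem qrq8_matrices (p : ℕ) [Fact p.Prime] (hp : p ≠ 2) :
    ∃ i j : Matrix.SpecialLinearGroup (Fin 2) (ZMod p),
      i * i ≠ 1 ∧ j * j ≠ 1 ∧ i * j ≠ j * i ∧ i ^ 4 = 1 ∧ j ^ 4 = 1 ∧ i * j * i = j := by
  have hpp : p.Prime := Fact.out
  have h2 : (2 : ZMod p) ≠ 0 := by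
    intro h
    have h3 : ((2 : ℕ) : ZMod p) = 0 := by exact_mod_cast h
    rw [ZMod.natCast_eq_zero_iff] at h3
    exact hp ((Nat.prime_dvd_prime_iff_eq hpp Nat.prime_two).mp h3)
  obtain ⟨α, β, hαβ⟩ := ZMod.sq_add_sq p (-1 : ZMod p)
  have hdi : Matrix.det !![α, β; β, -α] = 1 := by
    rw [Matrix.det_fin_two_of]; linear_combination (-1 : ZMod p) * hαβ
  have hdj : Matrix.det !![(0 : ZMod p), 1; -1, 0] = 1 := by
    rw [Matrix.det_fin_two_of]; ring
  have hii : (!![α, β; β, -α] * !![α, β; β, -α] : Matrix (Fin 2) (Fin 2) (ZMod p))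
      = !![-1, 0; 0, -1] := by
    ext r s
    fin_cases r <;> fin_cases s <;> simp [Matrix.mul_apply, Fin.sum_univ_two] <;>
      first | ring1 | linear_combination hαβ | linear_combination (-1 : ZMod p) * hαβ
  have hjj : (!![(0 : ZMod p), 1; -1, 0] * !![(0 : ZMod p), 1; -1, 0] :
      Matrix (Fin 2) (Fin 2) (ZMod p)) = !![-1, 0; 0, -1] := by
    ext r s
    fin_cases r <;> fin_cases s <;> simp [Matrix.mul_apply, Fin.sum_univ_two]
  have hneg : (!![(-1 : ZMod p), 0; 0, -1] * !![(-1 : ZMod p), 0; 0, -1] :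
      Matrix (Fin 2) (Fin 2) (ZMod p)) = 1 := by
    ext r s
    fin_cases r <;> fin_cases s <;> simp [Matrix.mul_apply, Fin.sum_univ_two]
  have hne1 : (!![(-1 : ZMod p), 0; 0, -1] : Matrix (Fin 2) (Fin 2) (ZMod p)) ≠ 1 := by
    intro h0
    have e := congrFun (congrFun h0 0) 0
    rw [Matrix.one_apply_eq] at e
    have e' : (-1 : ZMod p) = 1 := e
    apply h2
    linear_combination (-1 : ZMod p) * e'
  have hiji : ((!![α, β; β, -α] * !![(0 : ZMod p), 1; -1, 0]) * !![α, β; β, -α] :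
      Matrix (Fin 2) (Fin 2) (ZMod p)) = !![(0 : ZMod p), 1; -1, 0] := by
    ext r s
    fin_cases r <;> fin_cases s <;> simp [Matrix.mul_apply, Fin.sum_univ_two] <;>
      first | ring1 | linear_combination hαβ | linear_combination (-1 : ZMod p) * hαβ
  refine ⟨⟨!![α, β; β, -α], hdi⟩, ⟨!![(0 : ZMod p), 1; -1, 0], hdj⟩, ?_, ?_, ?_, ?_, ?_, ?_⟩
  · intro h
    have h0 := congrArg (fun m : Matrix.SpecialLinearGroup (Fin 2) (ZMod p) =>
      (m : Matrix (Fin 2) (Fin 2) (ZMod p))) h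
    have h1 : (!![α, β; β, -α] * !![α, β; β, -α] : Matrix (Fin 2) (Fin 2) (ZMod p)) = 1 := h0
    rw [hii] at h1
    exact hne1 h1
  · intro h
    have h0 := congrArg (fun m : Matrix.SpecialLinearGroup (Fin 2) (ZMod p) =>
      (m : Matrix (Fin 2) (Fin 2) (ZMod p))) h
    have h1 : (!![(0 : ZMod p), 1; -1, 0] * !![(0 : ZMod p), 1; -1, 0] :
        Matrix (Fin 2) (Fin 2) (ZMod p)) = 1 := h0
    rw [hjj] at h1
    exact hne1 h1
  · intro h
    have h0 := congrArg (fun m : Matrix.SpecialLinearGroup (Fin 2) (ZMod p) =>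
      (m : Matrix (Fin 2) (Fin 2) (ZMod p))) h
    have h1 : (!![α, β; β, -α] * !![(0 : ZMod p), 1; -1, 0] : Matrix (Fin 2) (Fin 2) (ZMod p))
        = !![(0 : ZMod p), 1; -1, 0] * !![α, β; β, -α] := h0
    rw [Matrix.mul_fin_two, Matrix.mul_fin_two] at h1
    have e00 : α * 0 + β * -1 = 0 * α + 1 * β := congrFun (congrFun h1 0) 0
    have e01 : α * 1 + β * 0 = 0 * β + 1 * -α := congrFun (congrFun h1 0) 1
    have hβ : β = 0 := by
      have h3 : (2 : ZMod p) * β = 0 := by linear_combination (-1 : ZMod p) * e00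
      exact (mul_eq_zero.mp h3).resolve_left h2
    have hα : α = 0 := by
      have h3 : (2 : ZMod p) * α = 0 := by linear_combination e01
      exact (mul_eq_zero.mp h3).resolve_left h2
    have h4 : (1 : ZMod p) = 0 := by linear_combination hαβ - α * hα - β * hβ
    exact one_ne_zero h4
  · apply Subtype.ext
    show (!![α, β; β, -α] : Matrix (Fin 2) (Fin 2) (ZMod p)) ^ 4 = 1
    rw [show (4 : ℕ) = 2 + 2 from rfl, pow_add, pow_two, hii, hneg]
  · apply Subtype.ext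
    show (!![(0 : ZMod p), 1; -1, 0] : Matrix (Fin 2) (Fin 2) (ZMod p)) ^ 4 = 1
    rw [show (4 : ℕ) = 2 + 2 from rfl, pow_add, pow_two, hjj, hneg]
  · apply Subtype.ext
    exact hiji

theorem qr_q8 {Q : Type*} [Group Q] [Finite Q] (p : ℕ) [Fact p.Prime] (hp : p ≠ 2)
    (K : Subgroup Q) (θ : ↥K →* Matrix.SpecialLinearGroup (Fin 2) (ZMod p))
    (hθ : Function.Surjective θ) :
    ∃ x y : Q, IsPGroup 2 (Subgroup.closure ({x, y} : Set Q)) ∧ x * x ≠ 1 ∧ y * y ≠ 1 ∧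
      x * y ≠ y * x := by
  haveI : Fact (Nat.Prime 2) := ⟨Nat.prime_two⟩
  obtain ⟨i, j, hii, hjj, hij, hi4, hj4, hiji⟩ := qrq8_matrices p hp
  have hjn : Subgroup.zpowers j ≤ Subgroup.normalizer
      ((Subgroup.zpowers i : Subgroup (Matrix.SpecialLinearGroup (Fin 2) (ZMod p))) :
        Set (Matrix.SpecialLinearGroup (Fin 2) (ZMod p))) := by
    rw [Subgroup.zpowers_le]
    apply Subgroup.mem_normalizer_fintype
    intro n hn
    obtain ⟨z, rfl⟩ := Subgroup.mem_zpowers_iff.mp hn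
    have h1 : j * i ^ z * j⁻¹ = (j * i * j⁻¹) ^ z := (conj_zpow).symm
    have h2 : j * i * j⁻¹ = i⁻¹ := by
      calc j * i * j⁻¹ = i⁻¹ * (i * j * i) * j⁻¹ := by group
        _ = i⁻¹ := by rw [hiji]; group
    rw [h1, h2]
    exact Subgroup.zpow_mem _ (Subgroup.inv_mem _ (Subgroup.mem_zpowers i)) z
  have hT : IsPGroup 2 (Subgroup.zpowers j ⊔ Subgroup.zpowers i :
      Subgroup (Matrix.SpecialLinearGroup (Fin 2) (ZMod p))) :=
    IsPGroup.to_sup_of_normal_right' (qrq8_isPGroup_zpowers j hj4)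
      (qrq8_isPGroup_zpowers i hi4) hjn
  obtain ⟨R, hR⟩ := hT.exists_le_sylow
  obtain ⟨P⟩ : Nonempty (Sylow 2 ↥K) := inferInstance
  obtain ⟨g, hg⟩ := MulAction.exists_smul_eq (Matrix.SpecialLinearGroup (Fin 2) (ZMod p))
    (P.mapSurjective hθ) R
  have hmem : ∀ m ∈ (Subgroup.zpowers j ⊔ Subgroup.zpowers i :
      Subgroup (Matrix.SpecialLinearGroup (Fin 2) (ZMod p))),
      ∃ x₀ : ↥K, x₀ ∈ (P : Subgroup ↥K) ∧ θ x₀ = g⁻¹ * m * g := by
    intro m hm
    have h1 : m ∈ (R : Subgroup (Matrix.SpecialLinearGroup (Fin 2) (ZMod p))) := hR hm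
    rw [← hg, Sylow.coe_subgroup_smul, Subgroup.mem_pointwise_smul_iff_inv_smul_mem] at h1
    have h2 : (MulAut.conj g)⁻¹ • m = g⁻¹ * m * g := by
      rw [← map_inv, MulAut.smul_def, MulAut.conj_apply, inv_inv]
    rw [h2, Sylow.coe_mapSurjective, Subgroup.mem_map] at h1
    exact h1
  obtain ⟨x₀, hx₀P, hx₀⟩ := hmem i (Subgroup.mem_sup_right (Subgroup.mem_zpowers i))
  obtain ⟨y₀, hy₀P, hy₀⟩ := hmem j (Subgroup.mem_sup_left (Subgroup.mem_zpowers j))
  refine ⟨(x₀ : Q), (y₀ : Q), ?_, ?_, ?_, ?_⟩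
  · have h1 : IsPGroup 2 ((P : Subgroup ↥K).map K.subtype) := P.isPGroup'.map K.subtype
    apply h1.to_le
    rw [Subgroup.closure_le]
    intro z hz
    rcases hz with rfl | rfl
    · exact Subgroup.mem_map_of_mem _ hx₀P
    · exact Subgroup.mem_map_of_mem _ hy₀P
  · intro h
    have h1 : x₀ * x₀ = 1 := Subtype.ext h
    have h2 := congrArg θ h1
    rw [map_mul, map_one, hx₀] at h2
    apply hii
    have h3 : i * i = g * (g⁻¹ * i * g * (g⁻¹ * i * g)) * g⁻¹ := by group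
    rw [h3, h2]; group
  · intro h
    have h1 : y₀ * y₀ = 1 := Subtype.ext h
    have h2 := congrArg θ h1
    rw [map_mul, map_one, hy₀] at h2
    apply hjj
    have h3 : j * j = g * (g⁻¹ * j * g * (g⁻¹ * j * g)) * g⁻¹ := by group
    rw [h3, h2]; group
  · intro h
    have h1 : x₀ * y₀ = y₀ * x₀ := Subtype.ext h
    have h2 := congrArg θ h1
    rw [map_mul, map_mul, hx₀, hy₀] at h2
    apply hij
    have h3 : i * j = g * (g⁻¹ * i * g * (g⁻¹ * j * g)) * g⁻¹ := by group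
    have h4 : j * i = g * (g⁻¹ * j * g * (g⁻¹ * i * g)) * g⁻¹ := by group
    rw [h3, h4, h2]

end Cfsg.Agent.Helper55
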