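import Mathlib

set_option autoImplicit false

namespace Cfsg.Agent.Helper55.TECEN1

open Matrix Polynomial
open scoped Kronecker

/-! ## Piece CEN1 (CALL S5979) -/
theorem exists_comm_det_diag {F : Type*} [Field F] {b : ℕ} (hb : 0 < b) (D : Fin b → F) (δ : F)
    (hδ : δ ≠ 0) :
    ∃ m m' : Matrix (Fin 2 × Fin b) (Fin 2 × Fin b) F, m * m' = 1 ∧ m' * m = 1 ∧ m.det = δ ∧
      m * ((1 : Matrix (Fin 2) (Fin 2) F) ⊗ₖ Matrix.diagonal D) =
        ((1 : Matrix (Fin 2) (Fin 2) F) ⊗ₖ Matrix.diagonal D) * m := by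
  classical
  obtain ⟨p0, hp0⟩ : ∃ p0 : Fin 2 × Fin b, p0 = (0, ⟨0, hb⟩) := ⟨_, rfl⟩
  have hK : (1 : Matrix (Fin 2) (Fin 2) F) ⊗ₖ Matrix.diagonal D =
      Matrix.diagonal (fun p : Fin 2 × Fin b => D p.2) := by
    rw [← Matrix.diagonal_one, Matrix.diagonal_kronecker_diagonal]
    congr 1
    funext p
    rw [one_mul]
  refine ⟨Matrix.diagonal (fun p => if p = p0 then δ else 1),
    Matrix.diagonal (fun p => if p = p0 then δ⁻¹ else 1), ?_, ?_, ?_, ?_⟩
  · rw [Matrix.diagonal_mul_diagonal, ← Matrix.diagonal_one]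
    congr 1
    funext p
    by_cases hp : p = p0
    · simp [hp, hδ]
    · simp [hp]
  · rw [Matrix.diagonal_mul_diagonal, ← Matrix.diagonal_one]
    congr 1
    funext p
    by_cases hp : p = p0
    · simp [hp, hδ]
    · simp [hp]
  · rw [Matrix.det_diagonal, Finset.prod_ite_eq' Finset.univ p0 (fun _ => δ)]
    simp
  · rw [hK, Matrix.diagonal_mul_diagonal, Matrix.diagonal_mul_diagonal]
    congr 1
    funext p
    rw [mul_comm]

end Cfsg.Agent.Helper55.TECEN1
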