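import Mathlib

set_option autoImplicit false

namespace Cfsg.Agent.Helper55.TEKID

open Matrix Polynomial
open scoped Kronecker

/-! ## Piece KID (CALL S5979) -/
theorem kron_eq_one {F : Type*} [Field F] {a b : ℕ} (ha : 0 < a) (hb : 0 < b)
    (M : Matrix (Fin a) (Fin a) F) (N : Matrix (Fin b) (Fin b) F) (h : M ⊗ₖ N = 1) :
    ∃ s : F, s ≠ 0 ∧ M = s • (1 : Matrix (Fin a) (Fin a) F) ∧
      N = s⁻¹ • (1 : Matrix (Fin b) (Fin b) F) := by
  have key : ∀ (i j : Fin a) (k l : Fin b),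
      M i j * N k l = (1 : Matrix (Fin a × Fin b) (Fin a × Fin b) F) (i, k) (j, l) := by
    intro i j k l
    rw [← h, Matrix.kronecker_apply]
  obtain ⟨i0, hi0⟩ : ∃ i0 : Fin a, i0 = ⟨0, ha⟩ := ⟨_, rfl⟩
  obtain ⟨k0, hk0⟩ : ∃ k0 : Fin b, k0 = ⟨0, hb⟩ := ⟨_, rfl⟩
  have h00 : M i0 i0 * N k0 k0 = 1 := by
    rw [key, Matrix.one_apply_eq]
  have hs : M i0 i0 ≠ 0 := left_ne_zero_of_mul_eq_one h00
  have hN0 : N k0 k0 = (M i0 i0)⁻¹ := eq_inv_of_mul_eq_one_right h00
  have hN0' : N k0 k0 ≠ 0 := right_ne_zero_of_mul_eq_one h00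
  refine ⟨M i0 i0, hs, ?_, ?_⟩
  · ext i j
    have h1 := key i j k0 k0
    by_cases hij : i = j
    · subst hij
      rw [Matrix.one_apply_eq] at h1
      have h2 : M i i = (N k0 k0)⁻¹ := eq_inv_of_mul_eq_one_left h1
      rw [Matrix.smul_apply, Matrix.one_apply_eq, smul_eq_mul, mul_one, h2, hN0, inv_inv]
    · have hne : ((i, k0) : Fin a × Fin b) ≠ (j, k0) := fun e => hij (congrArg Prod.fst e)
      rw [Matrix.one_apply_ne hne] at h1
      rw [Matrix.smul_apply, Matrix.one_apply_ne hij, smul_zero]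
      exact (mul_eq_zero.mp h1).resolve_right hN0'
  · ext k l
    have h1 := key i0 i0 k l
    by_cases hkl : k = l
    · subst hkl
      rw [Matrix.one_apply_eq] at h1
      have h2 : N k k = (M i0 i0)⁻¹ := eq_inv_of_mul_eq_one_right h1
      rw [Matrix.smul_apply, Matrix.one_apply_eq, smul_eq_mul, mul_one, h2]
    · have hne : ((i0, k) : Fin a × Fin b) ≠ (i0, l) := fun e => hkl (congrArg Prod.snd e)
      rw [Matrix.one_apply_ne hne] at h1
      rw [Matrix.smul_apply, Matrix.one_apply_ne hkl, smul_zero]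
      exact (mul_eq_zero.mp h1).resolve_left hs

end Cfsg.Agent.Helper55.TEKID
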