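import Mathlib

set_option autoImplicit false

namespace Cfsg.Agent.Helper55.TEKPOW

open Matrix Polynomial
open scoped Kronecker

/-! ## Piece KPOW (CALL S5979) -/
theorem kron_pow {F : Type*} [Field F] {a b : ℕ} (A : Matrix (Fin a) (Fin a) F)
    (B : Matrix (Fin b) (Fin b) F) (k : ℕ) : (A ⊗ₖ B) ^ k = (A ^ k) ⊗ₖ (B ^ k) := by
  induction k with
  | zero => rw [pow_zero, pow_zero, pow_zero, Matrix.one_kronecker_one]
  | succ k ih => rw [pow_succ, pow_succ, pow_succ, Matrix.mul_kronecker_mul, ih]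

end Cfsg.Agent.Helper55.TEKPOW
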