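import Mathlib

set_option autoImplicit false

namespace Cfsg.Agent.Helper55.TEPAR

open Matrix Polynomial
open scoped Kronecker

/-! ## Piece PAR (CALL S5979) -/
theorem even_count_neg {F : Type*} [Field F] {ι : Type*} [Fintype ι] (b : ℕ)
    (hcard : Fintype.card ι = 2 * b) (w : F) (d : ι → F) (hd : ∀ i, d i = w ∨ d i = -w)
    (hprod : ∏ i, d i = 1) (hno : ¬ ∃ w' : F, w' ^ (2 * b) = -1) :
    Even (Nat.card {i : ι // d i = -w}) := by
  classical
  have h1 : ∀ i, d i = w * (if d i = -w then (-1 : F) else 1) := by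
    intro i
    by_cases h : d i = -w
    · rw [if_pos h, h, mul_neg_one]
    · rw [if_neg h, mul_one]
      exact (hd i).resolve_right h
  have h2 : ∏ i, d i = w ^ (2 * b) *
      (-1 : F) ^ (Finset.univ.filter (fun i => d i = -w)).card := by
    rw [Finset.prod_congr rfl (fun i _ => h1 i), Finset.prod_mul_distrib, Finset.prod_const,
      Finset.card_univ, hcard, Finset.prod_ite, Finset.prod_const, Finset.prod_const_one, mul_one]
  have h3 : Nat.card {i : ι // d i = -w} = (Finset.univ.filter (fun i => d i = -w)).card := by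
    rw [Nat.card_eq_fintype_card, Fintype.card_subtype]
  rw [h3]
  by_contra hodd
  rw [Nat.not_even_iff_odd] at hodd
  rw [hodd.neg_one_pow, mul_neg_one, hprod] at h2
  exact hno ⟨w, by rw [← neg_eq_iff_eq_neg, ← h2]⟩

end Cfsg.Agent.Helper55.TEPAR
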