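import Mathlib

set_option autoImplicit false

namespace Cfsg.Agent.Helper55.TERK1

open Matrix Polynomial
open scoped Kronecker

/-! ## Piece RK1 (CALL S5979) -/
theorem rank_transvection_sub_one_le {F : Type*} [Field F] {n : ℕ} (i j : Fin n) (c : F) :
    (Matrix.transvection i j c - 1).rank ≤ 1 := by
  have h : Matrix.transvection i j c - 1 = Matrix.vecMulVec (Pi.single i c) (Pi.single j 1) := by
    rw [Matrix.transvection, add_sub_cancel_left]
    ext a b
    simp only [Matrix.single_apply, Matrix.vecMulVec_apply, Pi.single_apply]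
    by_cases h1 : i = a <;> by_cases h2 : j = b <;> simp [h1, h2, eq_comm]
  rw [h]
  exact Matrix.rank_vecMulVec_le _ _

end Cfsg.Agent.Helper55.TERK1
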