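import Mathlib

set_option autoImplicit false

namespace Cfsg.Agent.Helper55.TERK2

open Matrix Polynomial
open scoped Kronecker

/-! ## Piece RK2 (CALL S5979) -/
theorem rank_diag_sub_le {F : Type*} [Field F] {n : ℕ} (d : Fin n → F) (c : F) (k : ℕ)
    (h : Nat.card {i : Fin n // d i ≠ c} ≤ k) :
    (Matrix.diagonal d - c • (1 : Matrix (Fin n) (Fin n) F)).rank ≤ k := by
  classical
  have h1 : Matrix.diagonal d - c • (1 : Matrix (Fin n) (Fin n) F) =
      Matrix.diagonal (fun i => d i - c) := by
    ext a b
    by_cases hab : a = b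
    · subst hab
      simp
    · simp [Matrix.diagonal_apply_ne _ hab, Matrix.one_apply_ne hab]
  rw [h1, Matrix.rank_diagonal]
  have h2 : Fintype.card {i : Fin n // d i - c ≠ 0} = Nat.card {i : Fin n // d i ≠ c} := by
    rw [← Nat.card_eq_fintype_card]
    apply Nat.card_congr
    exact Equiv.subtypeEquivRight (fun i => by rw [Ne, Ne, sub_eq_zero])
  rw [h2]
  exact h

end Cfsg.Agent.Helper55.TERK2
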