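import Mathlib

set_option autoImplicit false

namespace Cfsg.Agent.Helper55.TETVP

open Matrix Polynomial
open scoped Kronecker

/-! ## Piece TVP (CALL S5979) -/
theorem transvection_pow_char {F : Type*} [Field F] (p : ℕ) [CharP F p] {n : ℕ} (i j : Fin n)
    (hij : i ≠ j) : (Matrix.transvection i j (1 : F)) ^ p = 1 := by
  have key : ∀ k : ℕ, (Matrix.transvection i j (1 : F)) ^ k = Matrix.transvection i j (k : F) := by
    intro k
    induction k with
    | zero => rw [pow_zero, Nat.cast_zero, Matrix.transvection_zero]
    | succ k ih =>
      rw [pow_succ, ih, Matrix.transvection_mul_transvection_same (i := i) (j := j) hij, Nat.cast_succ]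
  rw [key, CharP.cast_eq_zero, Matrix.transvection_zero]

end Cfsg.Agent.Helper55.TETVP
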