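import Mathlib
import Cfsg.Agent.Helper97.TGDefs

set_option autoImplicit false

universe u

namespace Cfsg.Agent.Helper55

open Cfsg Matrix Cfsg.Agent.Helper45 Cfsg.Agent.Helper98 Cfsg.Agent.Helper97.TG

section generic

variable {ι : Type} [Fintype ι] [DecidableEq ι] {F : Type u} [Field F]
  (Q : QuadraticForm F (ι → F))

theorem tgcomm_eichO_congr (u u' b b' : ι → F) (hu : Q u = 0)
    (hub : QuadraticMap.polar ⇑Q u b = 0) (hu' : Q u' = 0)
    (hub' : QuadraticMap.polar ⇑Q u' b' = 0) (e1 : u' = u) (e2 : b' = b) :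
    eichO Q u' b' hu' hub' = eichO Q u b hu hub := by
  subst e1
  subst e2
  rfl

theorem tgcomm_reflO_congr (a a' : ι → F) (ha : Q a ≠ 0) (ha' : Q a' ≠ 0) (e : a' = a) :
    reflO Q a' ha' = reflO Q a ha := by
  subst e
  rfl

/-- COMM (two statements) -/
theorem tg_commute_eichO (k : ↥(isometryGroup F ⇑Q)) (u b : ι → F) (hu : Q u = 0)
    (hub : QuadraticMap.polar ⇑Q u b = 0) (h1 : mv ⇑Q k u = u) (h2 : mv ⇑Q k b = b) :
    Commute k (eichO Q u b hu hub) := by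
  have hu' : Q (mv ⇑Q k u) = 0 := by rw [h1]; exact hu
  have hub' : QuadraticMap.polar ⇑Q (mv ⇑Q k u) (mv ⇑Q k b) = 0 := by rw [h1, h2]; exact hub
  have e := conj_eichO Q k u b hu hub hu' hub'
  rw [tgcomm_eichO_congr Q u (mv ⇑Q k u) b (mv ⇑Q k b) hu hub hu' hub' h1 h2] at e
  show k * eichO Q u b hu hub = eichO Q u b hu hub * k
  exact mul_inv_eq_iff_eq_mul.mp e

theorem tg_commute_reflO (k : ↥(isometryGroup F ⇑Q)) (a : ι → F) (ha : Q a ≠ 0)
    (h : mv ⇑Q k a = a) : Commute k (reflO Q a ha) := by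
  have ha' : Q (mv ⇑Q k a) ≠ 0 := by rw [h]; exact ha
  have e := conj_reflO Q k a ha ha'
  rw [tgcomm_reflO_congr Q a (mv ⇑Q k a) ha ha' h] at e
  show k * reflO Q a ha = reflO Q a ha * k
  exact mul_inv_eq_iff_eq_mul.mp e

end generic

end Cfsg.Agent.Helper55
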