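import Mathlib

set_option autoImplicit false

namespace Cfsg.Agent.Helper55

open Matrix

/-- HFIX (CALL S2414): the diagonal element `diag(k, k⁻¹, 1, …, 1)` and its transpose fix the
basis vectors `e_c` with `c ≥ 2`. -/
theorem tg_h_fix {K : Type*} [Field K] (n : ℕ) (k : Kˣ)
    (h : Matrix.SpecialLinearGroup (Fin (n + 1)) K)
    (hh : (h : Matrix (Fin (n + 1)) (Fin (n + 1)) K) =
      Matrix.diagonal (fun i => if i.val = 0 then (k : K) else if i.val = 1 then ((k⁻¹ : Kˣ) : K) else 1))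
    (c : Fin (n + 1)) (hc : 2 ≤ c.val) :
    (h : Matrix (Fin (n + 1)) (Fin (n + 1)) K) *ᵥ Pi.single c 1 = Pi.single c 1 ∧
      (h : Matrix (Fin (n + 1)) (Fin (n + 1)) K)ᵀ *ᵥ Pi.single c 1 = Pi.single c 1 := by
  have h0 : ¬ c.val = 0 := by omega
  have h1 : ¬ c.val = 1 := by omega
  rw [hh, Matrix.diagonal_transpose, Matrix.diagonal_mulVec_single]
  simp [h0, h1]

end Cfsg.Agent.Helper55
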