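import Mathlib

set_option autoImplicit false

namespace Cfsg.Agent.Helper55

open Matrix

/-- XFIX (CALL S2414): the transvection `1 + E₀₁` and its transpose fix the basis vectors `e_c`
with `c ≥ 2`. -/
theorem tg_x_fix {K : Type*} [Field K] (n : ℕ)
    (x : Matrix.SpecialLinearGroup (Fin (n + 1)) K)
    (hx : (x : Matrix (Fin (n + 1)) (Fin (n + 1)) K) =
      Matrix.transvection (0 : Fin (n + 1)) (1 : Fin (n + 1)) 1)
    (c : Fin (n + 1)) (hc : 2 ≤ c.val) :
    (x : Matrix (Fin (n + 1)) (Fin (n + 1)) K) *ᵥ Pi.single c 1 = Pi.single c 1 ∧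
      (x : Matrix (Fin (n + 1)) (Fin (n + 1)) K)ᵀ *ᵥ Pi.single c 1 = Pi.single c 1 := by
  have hn : 2 ≤ n := by have := c.isLt; omega
  have h0 : c ≠ (0 : Fin (n + 1)) := by
    intro h; rw [h] at hc; simp at hc
  have h1 : c ≠ (1 : Fin (n + 1)) := by
    intro h; rw [h] at hc
    have : ((1 : Fin (n + 1)) : ℕ) = 1 := by
      rw [Fin.val_one']; exact Nat.mod_eq_of_lt (by omega)
    omega
  rw [hx, Matrix.transvection]
  constructor
  · rw [Matrix.add_mulVec, Matrix.one_mulVec]
    have : Matrix.single (0 : Fin (n + 1)) (1 : Fin (n + 1)) (1 : K) *ᵥ Pi.single c 1 = 0 := by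
      ext i
      simp [Matrix.mulVec, dotProduct, Matrix.single_apply, Pi.single_apply, Ne.symm h1, h1]
    rw [this, add_zero]
  · rw [Matrix.transpose_add, Matrix.transpose_one, Matrix.add_mulVec, Matrix.one_mulVec]
    have : (Matrix.single (0 : Fin (n + 1)) (1 : Fin (n + 1)) (1 : K))ᵀ *ᵥ Pi.single c 1 = 0 := by
      ext i
      simp [Matrix.mulVec, dotProduct, Matrix.single_apply, Pi.single_apply, Ne.symm h0, h0]
    rw [this, add_zero]

end Cfsg.Agent.Helper55
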